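import Mathlib

set_option autoImplicit false

/-! Counting fixed points in multiply transitive groups. -/

namespace Cfsg.Agent.Lib.Helper12.FixCount

open MulAction

variable {G α : Type*} [Group G] [MulAction G α]

/-- embeddings fixed by `g` are embeddings into the fixed points of `g`. -/
def fixedByEmbEquiv (k : ℕ) (g : G) : fixedBy (Fin k ↪ α) g ≃ (Fin k ↪ fixedBy α g) where
  toFun x := ⟨fun i => ⟨x.1 i, DFunLike.congr_fun x.2 i⟩,
    fun i j h => x.1.injective (congrArg Subtype.val h)⟩
  invFun y := ⟨⟨fun i => (y i).1, fun i j h => y.injective (Subtype.ext h)⟩, by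
    rw [mem_fixedBy]
    ext i
    exact (y i).2⟩
  left_inv x := by ext; rfl
  right_inv y := by ext; rfl

theorem sum_descFactorial [Fintype G] [Finite α] (k : ℕ) (hk : IsMultiplyPretransitive G α k)
    (hkc : k ≤ Nat.card α) :
    ∑ g : G, (Nat.card (fixedBy α g)).descFactorial k = Fintype.card G := by
  classical
  have := Fintype.ofFinite α
  have h := MulAction.sum_card_fixedBy_eq_card_orbits_mul_card_group G (Fin k ↪ α)
  have hne : Nonempty (Fin k ↪ α) := by
    rw [Function.Embedding.nonempty_iff_card_le, Fintype.card_fin, ← Nat.card_eq_fintype_card]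
    exact hkc
  have h1 : Fintype.card (Quotient (orbitRel G (Fin k ↪ α))) = 1 := by
    rw [Fintype.card_eq_one_iff_nonempty_unique]
    have : IsPretransitive G (Fin k ↪ α) := hk
    obtain ⟨x⟩ := hne
    refine ⟨⟨⟨Quotient.mk'' x⟩, ?_⟩⟩
    intro q
    induction q using Quotient.inductionOn' with | _ y => ?_
    apply Quotient.sound'
    exact MulAction.exists_smul_eq G x y
  rw [h1, one_mul] at h
  rw [← h]
  refine Finset.sum_congr rfl fun g _ => ?_
  rw [Fintype.card_congr (fixedByEmbEquiv k g), Fintype.card_embedding_eq, Fintype.card_fin,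
    Nat.card_eq_fintype_card]

theorem cast_descFactorial_two (m : ℕ) : ((m.descFactorial 2 : ℕ) : ℤ) = m * (m - 1) := by
  rcases m with _ | m
  · simp
  · simp [Nat.descFactorial_succ]
    ring

theorem cast_descFactorial_three (m : ℕ) :
    ((m.descFactorial 3 : ℕ) : ℤ) = m * (m - 1) * (m - 2) := by
  rcases m with _ | _ | m
  · simp
  · simp [Nat.descFactorial_succ]
  · simp [Nat.descFactorial_succ]
    ring

/-- A 3-transitive group of degree `p` with at least `(p-1)|G|/(2p)` fixed-point-free elements has
order at most `p(p-1)(p-2)`. -/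
theorem card_le_of_derangements [Fintype G] [Finite α] [FaithfulSMul G α]
    (h3 : IsMultiplyPretransitive G α 3) (p : ℕ) (hα : Nat.card α = p) (hp : 3 ≤ p)
    (hD : (p - 1) * Fintype.card G ≤ 2 * p * Nat.card {g : G // ∀ a : α, g • a ≠ a}) :
    Fintype.card G ≤ p * (p - 1) * (p - 2) := by
  classical
  have := Fintype.ofFinite α
  have h2 : IsMultiplyPretransitive G α 2 :=
    isMultiplyPretransitive_of_le (n := 3) (by norm_num) (by omega)
  have h1 : IsMultiplyPretransitive G α 1 :=
    isMultiplyPretransitive_of_le (n := 3) (by norm_num) (by omega)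
  have s1 := sum_descFactorial 1 h1 (by omega)
  have s2 := sum_descFactorial 2 h2 (by omega)
  have s3 := sum_descFactorial 3 h3 (by omega)
  set n : ℤ := (Fintype.card G : ℤ) with hn
  set D : ℕ := Nat.card {g : G // ∀ a : α, g • a ≠ a} with hDdef
  let f : G → ℤ := fun g => (Nat.card (fixedBy α g) : ℤ)
  have z1 : ∑ g : G, f g = n := by
    have := congrArg (Nat.cast : ℕ → ℤ) s1
    rw [Nat.cast_sum] at this
    simpa [f] using this
  have z2 : ∑ g : G, f g * (f g - 1) = n := by
    have := congrArg (Nat.cast : ℕ → ℤ) s2
    rw [Nat.cast_sum] at this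
    simpa only [cast_descFactorial_two] using this
  have z3 : ∑ g : G, f g * (f g - 1) * (f g - 2) = n := by
    have := congrArg (Nat.cast : ℕ → ℤ) s3
    rw [Nat.cast_sum] at this
    simpa only [cast_descFactorial_three] using this
  have hpz : (3 : ℤ) ≤ p := by exact_mod_cast hp
  let w : G → ℤ := fun g => ((p : ℤ) - 1 - f g) * (f g - 1) * (f g - 2)
  have hwsum : ∑ g : G, w g = ((p : ℤ) - 2) * n := by
    have : ∀ g, w g = - (f g * (f g - 1) * (f g - 2)) + ((p : ℤ) - 1) * (f g * (f g - 1))
        - 2 * ((p : ℤ) - 1) * f g + 2 * ((p : ℤ) - 1) := by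
      intro g
      simp only [w]
      ring
    simp only [this]
    rw [Finset.sum_add_distrib, Finset.sum_sub_distrib, Finset.sum_add_distrib,
      Finset.sum_neg_distrib, ← Finset.mul_sum, ← Finset.mul_sum, z1, z2, z3, Finset.sum_const,
      Finset.card_univ, nsmul_eq_mul, ← hn]
    ring
  let L : G → ℤ := fun g => (if g = 1 then -(((p : ℤ) - 1) * ((p : ℤ) - 2)) else 0) +
    (if (∀ a : α, g • a ≠ a) then 2 * ((p : ℤ) - 1) else 0)
  have hne : Nonempty α := by
    rw [← Finite.card_pos_iff]; omega
  have hLw : ∀ g, L g ≤ w g := by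
    intro g
    by_cases hg : g = 1
    · subst hg
      have hf : f 1 = p := by
        simp only [f]
        have hu : fixedBy α (1 : G) = Set.univ := Set.eq_univ_of_forall fun a => one_smul _ _
        rw [hu, Nat.card_coe_set_eq, Set.ncard_univ, hα]
      have hnd : ¬ (∀ a : α, (1 : G) • a ≠ a) := by
        intro h
        obtain ⟨a⟩ := hne
        exact h a (one_smul _ _)
      simp only [L, w, hf, if_true, if_neg hnd]
      apply le_of_eq
      ring
    · by_cases hd : ∀ a : α, g • a ≠ a
      · have hf : f g = 0 := by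
          simp only [f]
          have : IsEmpty (fixedBy α g) := ⟨fun x => hd x.1 x.2⟩
          simp
        simp only [L, w, hf, if_neg hg, if_pos hd]
        apply le_of_eq
        ring
      · push Not at hd
        obtain ⟨a, ha⟩ := hd
        have hf1 : 1 ≤ f g := by
          simp only [f]
          have : Nonempty (fixedBy α g) := ⟨⟨a, ha⟩⟩
          have := Finite.card_pos (α := fixedBy α g)
          exact_mod_cast this
        have hf2 : f g ≤ p - 1 := by
          have hb : ∃ b : α, g • b ≠ b := by
            by_contra hcon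
            push Not at hcon
            apply hg
            apply FaithfulSMul.eq_of_smul_eq_smul (α := α)
            intro b
            rw [hcon b, one_smul]
          obtain ⟨b, hb⟩ := hb
          have hlt : (fixedBy α g).ncard < (Set.univ : Set α).ncard := by
            apply Set.ncard_lt_ncard _ (Set.toFinite _)
            rw [Set.ssubset_univ_iff]
            intro h
            have : b ∈ fixedBy α g := by rw [h]; trivial
            exact hb this
          rw [Set.ncard_univ, hα] at hlt
          simp only [f]
          rw [Nat.card_coe_set_eq]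
          have : ((fixedBy α g).ncard : ℤ) < p := by exact_mod_cast hlt
          linarith
        have hd' : ¬ (∀ a : α, g • a ≠ a) := fun h => h a ha
        simp only [L, w, if_neg hg, if_neg hd', add_zero]
        have h12 : 0 ≤ (f g - 1) * (f g - 2) := by
          rcases eq_or_lt_of_le hf1 with h | h
          · rw [← h]; norm_num
          · have : 2 ≤ f g := h
            exact mul_nonneg (by linarith) (by linarith)
        rw [mul_assoc]
        exact mul_nonneg (by linarith) h12
  have hLsum : ∑ g : G, L g = -(((p : ℤ) - 1) * ((p : ℤ) - 2)) + 2 * ((p : ℤ) - 1) * D := by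
    simp only [L]
    rw [Finset.sum_add_distrib, Finset.sum_ite_eq' Finset.univ (1 : G), if_pos (Finset.mem_univ _),
      ← Finset.sum_filter, Finset.sum_const, nsmul_eq_mul, hDdef, Nat.card_eq_fintype_card,
      Fintype.card_subtype]
    ring
  have key : -(((p : ℤ) - 1) * ((p : ℤ) - 2)) + 2 * ((p : ℤ) - 1) * D ≤ ((p : ℤ) - 2) * n := by
    rw [← hLsum, ← hwsum]
    exact Finset.sum_le_sum fun g _ => hLw g
  have hDz : ((p : ℤ) - 1) * n ≤ 2 * p * D := by
    have := (Nat.cast_le (α := ℤ)).mpr hD
    push_cast [Nat.cast_sub (show 1 ≤ p by omega)] at this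
    exact this
  have fin : n ≤ (p : ℤ) * (p - 1) * (p - 2) := by
    nlinarith [mul_le_mul_of_nonneg_left key (show (0 : ℤ) ≤ p by linarith),
      mul_le_mul_of_nonneg_left hDz (show (0 : ℤ) ≤ (p : ℤ) - 1 by linarith)]
  have : ((Fintype.card G : ℕ) : ℤ) ≤ ((p * (p - 1) * (p - 2) : ℕ) : ℤ) := by
    push_cast [Nat.cast_sub (show 1 ≤ p by omega), Nat.cast_sub (show 2 ≤ p by omega)]
    exact fin
  exact_mod_cast this

end Cfsg.Agent.Lib.Helper12.FixCount
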