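import Mathlib

set_option autoImplicit false

namespace Cfsg.Agent.Lib.Helper12.GL2

/-- A `2 × 2` matrix, coded by four natural numbers. -/
abbrev Q := ℕ × ℕ × ℕ × ℕ

def one : Q := (1, 0, 0, 1)

def toMat (p : ℕ) (x : Q) : Matrix (Fin 2) (Fin 2) (ZMod p) :=
  !![(x.1 : ZMod p), (x.2.1 : ZMod p); (x.2.2.1 : ZMod p), (x.2.2.2 : ZMod p)]

def mulQ (p : ℕ) (x y : Q) : Q :=
  ((x.1 * y.1 + x.2.1 * y.2.2.1) % p, (x.1 * y.2.1 + x.2.1 * y.2.2.2) % p,
   (x.2.2.1 * y.1 + x.2.2.2 * y.2.2.1) % p, (x.2.2.1 * y.2.1 + x.2.2.2 * y.2.2.2) % p)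

theorem toMat_one (p : ℕ) : toMat p one = 1 := by
  simp [toMat, one, Matrix.one_fin_two]

theorem toMat_mulQ (p : ℕ) (x y : Q) : toMat p (mulQ p x y) = toMat p x * toMat p y := by
  simp [toMat, mulQ, ZMod.natCast_mod]

/-- every element of the list is `one` or a later element times a generator -/
def good (p : ℕ) (gens : List Q) : List Q → Bool
  | [] => true
  | x :: rest => (x == one || rest.any (fun y => gens.any (fun g => mulQ p y g == x))) &&
      good p gens rest

def closed (p : ℕ) (gens L : List Q) : Bool :=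
  L.all (fun x => gens.all (fun g => L.contains (mulQ p x g)))

def reduced (p : ℕ) (L : List Q) : Bool :=
  L.all (fun x => decide (x.1 < p) && decide (x.2.1 < p) && decide (x.2.2.1 < p) &&
    decide (x.2.2.2 < p))

/-- no element other than `one` has eigenvalue `1` -/
def semireg (p : ℕ) (L : List Q) : Bool :=
  L.all (fun x => x == one || decide ((x.1 * x.2.2.2 + 1) % p ≠ (x.1 + x.2.2.2 + x.2.1 * x.2.2.1) % p))

theorem toMat_injOn {p : ℕ} {x y : Q} (hx : reduced p [x] = true) (hy : reduced p [y] = true)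
    (h : toMat p x = toMat p y) : x = y := by
  simp only [reduced, List.all_cons, List.all_nil, Bool.and_true, Bool.and_eq_true,
    decide_eq_true_eq] at hx hy
  obtain ⟨⟨⟨hx1, hx2⟩, hx3⟩, hx4⟩ := hx
  obtain ⟨⟨⟨hy1, hy2⟩, hy3⟩, hy4⟩ := hy
  have key : ∀ a b : ℕ, a < p → b < p → (a : ZMod p) = (b : ZMod p) → a = b := by
    intro a b ha hb hab
    rw [ZMod.natCast_eq_natCast_iff'] at hab
    rwa [Nat.mod_eq_of_lt ha, Nat.mod_eq_of_lt hb] at hab
  have h00 := congrFun (congrFun h 0) 0
  have h01 := congrFun (congrFun h 0) 1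
  have h10 := congrFun (congrFun h 1) 0
  have h11 := congrFun (congrFun h 1) 1
  simp only [toMat, Matrix.of_apply, Matrix.cons_val', Matrix.cons_val_zero, Matrix.cons_val_one,
    Matrix.cons_val_fin_one] at h00 h01 h10 h11
  obtain ⟨x1, x2, x3, x4⟩ := x
  obtain ⟨y1, y2, y3, y4⟩ := y
  simp only at *
  rw [key _ _ hx1 hy1 h00, key _ _ hx2 hy2 h01, key _ _ hx3 hy3 h10, key _ _ hx4 hy4 h11]

variable {p : ℕ} [Fact p.Prime]

local notation "GL2" => Matrix.GeneralLinearGroup (Fin 2) (ZMod p)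

theorem good_mem (S : Set GL2) (gens : List Q)
    (hS' : ∀ q ∈ gens, ∃ g ∈ S, (g : Matrix (Fin 2) (Fin 2) (ZMod p)) = toMat p q) (L : List Q)
    (hgood : good p gens L = true) :
    ∀ x ∈ L, ∃ h ∈ Subgroup.closure S, (h : Matrix (Fin 2) (Fin 2) (ZMod p)) = toMat p x := by
  induction L with
  | nil => intro x hx; simp at hx
  | cons x rest ih =>
    simp only [good, Bool.and_eq_true, Bool.or_eq_true, beq_iff_eq, List.any_eq_true] at hgood
    obtain ⟨h1, h2⟩ := hgood
    have ih' := ih h2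
    intro z hz
    rcases List.mem_cons.mp hz with rfl | hz
    · rcases h1 with rfl | ⟨y, hy, g, hg, rfl⟩
      · exact ⟨1, Subgroup.one_mem _, by rw [toMat_one]; rfl⟩
      · obtain ⟨hy', hy'mem, hy'eq⟩ := ih' y hy
        obtain ⟨g', hg'mem, hg'eq⟩ := hS' g hg
        refine ⟨hy' * g', Subgroup.mul_mem _ hy'mem (Subgroup.subset_closure hg'mem), ?_⟩
        rw [toMat_mulQ, ← hy'eq, ← hg'eq]; rfl
    · exact ih' z hz

theorem mem_closure_iff (S : Set GL2) (gens L : List Q)
    (hS : ∀ g ∈ S, ∃ q ∈ gens, (g : Matrix (Fin 2) (Fin 2) (ZMod p)) = toMat p q)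
    (hS' : ∀ q ∈ gens, ∃ g ∈ S, (g : Matrix (Fin 2) (Fin 2) (ZMod p)) = toMat p q)
    (hgood : good p gens L = true) (hone : L.contains one = true)
    (hclosed : closed p gens L = true) (h : GL2) :
    h ∈ Subgroup.closure S ↔ ∃ x ∈ L, (h : Matrix (Fin 2) (Fin 2) (ZMod p)) = toMat p x := by
  constructor
  · intro hh
    have hh' : h ∈ (Subgroup.closure S).toSubmonoid := hh
    rw [Subgroup.closure_toSubmonoid_of_finite] at hh'
    clear hh
    induction hh' using Submonoid.closure_induction_right with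
    | one =>
      refine ⟨one, by simpa using hone, ?_⟩
      rw [toMat_one]; rfl
    | mul_right a _ g hg ih =>
      obtain ⟨x, hx, hax⟩ := ih
      obtain ⟨q, hq, hgq⟩ := hS g hg
      simp only [closed, List.all_eq_true] at hclosed
      have := hclosed x hx q hq
      refine ⟨mulQ p x q, by simpa using this, ?_⟩
      rw [toMat_mulQ, ← hax, ← hgq]; rfl
  · rintro ⟨x, hx, hhx⟩
    obtain ⟨h', hh', hh'x⟩ := good_mem S gens hS' L hgood x hx
    have : h = h' := Units.ext (hhx.trans hh'x.symm)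
    rw [this]; exact hh'

theorem card_closure (S : Set GL2) (gens L : List Q)
    (hS : ∀ g ∈ S, ∃ q ∈ gens, (g : Matrix (Fin 2) (Fin 2) (ZMod p)) = toMat p q)
    (hS' : ∀ q ∈ gens, ∃ g ∈ S, (g : Matrix (Fin 2) (Fin 2) (ZMod p)) = toMat p q)
    (hgood : good p gens L = true) (hone : L.contains one = true)
    (hclosed : closed p gens L = true) (hred : reduced p L = true) (hnd : L.Nodup) :
    Nat.card (Subgroup.closure S) = L.length := by
  classical
  have hmem := mem_closure_iff S gens L hS hS' hgood hone hclosed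
  have hred' : ∀ x ∈ L, reduced p [x] = true := by
    intro x hx
    simp only [reduced, List.all_eq_true] at hred
    simp only [reduced, List.all_cons, List.all_nil, Bool.and_true]
    exact hred x hx
  choose f hf hf' using fun h : Subgroup.closure S => (hmem h.1).mp h.2
  have hbij : Function.Bijective (fun h : Subgroup.closure S => (⟨f h, hf h⟩ : {x // x ∈ L})) := by
    constructor
    · intro h h' e
      have e' : f h = f h' := congrArg Subtype.val e
      apply Subtype.ext
      apply Units.ext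
      rw [hf', hf', e']
    · rintro ⟨x, hx⟩
      obtain ⟨h, hh, hhx⟩ := good_mem S gens hS' L hgood x hx
      refine ⟨⟨h, hh⟩, ?_⟩
      apply Subtype.ext
      apply toMat_injOn (hred' _ (hf _)) (hred' _ hx)
      rw [← hf', hhx]
  rw [Nat.card_congr (Equiv.ofBijective _ hbij), ← List.toFinset_card_of_nodup hnd]
  have : {x // x ∈ L} = {x // x ∈ L.toFinset} := by simp
  rw [this, Nat.card_eq_fintype_card, Fintype.card_coe]

theorem eq_one_of_semireg (L : List Q) (hsemi : semireg p L = true) {x : Q} (hx : x ∈ L)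
    {v : Fin 2 → ZMod p} (hv : v ≠ 0) (h : (toMat p x).mulVec v = v) : x = one := by
  simp only [semireg, List.all_eq_true, Bool.or_eq_true, beq_iff_eq, decide_eq_true_eq] at hsemi
  rcases hsemi x hx with h1 | h1
  · exact h1
  · exfalso
    apply h1
    have hdet : (toMat p x - 1).det = 0 := by
      rw [← Matrix.exists_mulVec_eq_zero_iff]
      exact ⟨v, hv, by rw [Matrix.sub_mulVec, h, Matrix.one_mulVec, sub_self]⟩
    rw [Matrix.det_fin_two] at hdet
    simp only [toMat, Matrix.sub_apply, Matrix.of_apply, Matrix.cons_val', Matrix.cons_val_zero,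
      Matrix.cons_val_one, Matrix.cons_val_fin_one, Matrix.one_apply_eq, ne_eq, zero_ne_one,
      not_false_eq_true, Matrix.one_apply_ne, one_ne_zero, sub_zero] at hdet
    rw [← ZMod.natCast_eq_natCast_iff']
    push_cast
    linear_combination hdet

theorem regular_of_semiregular_card (H : Subgroup GL2)
    (hsemi : ∀ h ∈ H, ∀ v : Fin 2 → ZMod p, v ≠ 0 →
      (h : Matrix (Fin 2) (Fin 2) (ZMod p)).mulVec v = v → h = 1)
    (hcard : Nat.card H = p ^ 2 - 1) :
    ∀ v w : Fin 2 → ZMod p, v ≠ 0 → w ≠ 0 →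
      ∃! h : H, Matrix.mulVec ((h : GL2) : Matrix (Fin 2) (Fin 2) (ZMod p)) v = w := by
  classical
  intro v w hv hw
  have hne : ∀ h : GL2, (h : Matrix (Fin 2) (Fin 2) (ZMod p)).mulVec v ≠ 0 := by
    intro h h0
    apply hv
    have := congrArg ((h⁻¹ : GL2) : Matrix (Fin 2) (Fin 2) (ZMod p)).mulVec h0
    rw [Matrix.mulVec_mulVec, ← Units.val_mul, inv_mul_cancel, Units.val_one, Matrix.one_mulVec,
      Matrix.mulVec_zero] at this
    exact this
  let φ : H → {w : Fin 2 → ZMod p // w ≠ 0} := fun h => ⟨_, hne h.1⟩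
  have hinj : Function.Injective φ := by
    intro h h' e
    have e' : ((h : GL2) : Matrix (Fin 2) (Fin 2) (ZMod p)).mulVec v =
        ((h' : GL2) : Matrix (Fin 2) (Fin 2) (ZMod p)).mulVec v := congrArg Subtype.val e
    have h1 : (((h' : GL2)⁻¹ * (h : GL2) : GL2) : Matrix (Fin 2) (Fin 2) (ZMod p)).mulVec v = v := by
      rw [Units.val_mul, ← Matrix.mulVec_mulVec, e', Matrix.mulVec_mulVec, ← Units.val_mul,
        inv_mul_cancel, Units.val_one, Matrix.one_mulVec]
    have h2 := hsemi _ (H.mul_mem (H.inv_mem h'.2) h.2) v hv h1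
    rw [inv_mul_eq_one] at h2
    exact Subtype.ext h2.symm
  have hbij : Function.Bijective φ := by
    rw [Nat.bijective_iff_injective_and_card]
    refine ⟨hinj, ?_⟩
    rw [hcard, Nat.card_eq_fintype_card, Fintype.card_subtype_compl, Fintype.card_fun,
      ZMod.card, Fintype.card_fin]
    simp
  obtain ⟨h, hh⟩ := hbij.2 ⟨w, hw⟩
  refine ⟨h, congrArg Subtype.val hh, ?_⟩
  intro h' hh'
  apply hinj
  rw [hh]
  exact Subtype.ext hh'

end Cfsg.Agent.Lib.Helper12.GL2
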