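import Mathlib

set_option autoImplicit false

namespace Cfsg.Agent.Lib.Helper12.Gleason

open MulAction SubMulAction

theorem card_orbit_modEq {G α : Type*} [Group G] [MulAction G α] [Finite α] {p : ℕ}
    [Fact p.Prime] (P : Subgroup G) (hP : IsPGroup p P) (a : α) :
    Nat.card (orbit G a) ≡ (orbit G a ∩ fixedPoints P α).ncard [MOD p] := by
  have h1 := hP.card_modEq_card_fixedPoints (orbit G a)
  have h2 : Nat.card (fixedPoints P (orbit G a)) = (orbit G a ∩ fixedPoints P α).ncard := by
    rw [Nat.card_coe_set_eq, ← Set.ncard_image_of_injective _ Subtype.val_injective]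
    congr 1
    ext x
    constructor
    · rintro ⟨y, hy, rfl⟩
      refine ⟨y.2, fun g => ?_⟩
      have := hy g
      exact congrArg Subtype.val this
    · rintro ⟨hx, hx2⟩
      exact ⟨⟨x, hx⟩, fun g => Subtype.ext (hx2 g), rfl⟩
  rwa [h2] at h1

theorem isPretransitive {G α : Type*} [Group G] [MulAction G α] [Finite α] {p k : ℕ}
    [hp : Fact p.Prime] (hk : 1 ≤ k) (hkn : k < Nat.card α)
    (h : ∀ s : Set α, s.ncard = k → ∃ P : Subgroup G, IsPGroup p P ∧ fixedPoints P α = s) :
    IsPretransitive G α := by
  classical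
  refine ⟨fun a b => ?_⟩
  by_contra hab
  have hb : b ∉ orbit G a := fun ⟨g, hg⟩ => hab ⟨g, hg⟩
  have hne : a ≠ b := by
    rintro rfl
    exact hb (mem_orbit_self a)
  have hcard : k - 1 ≤ (({a, b} : Set α)ᶜ).ncard := by
    have h1 := Set.ncard_add_ncard_compl ({a, b} : Set α)
    rw [Set.ncard_pair hne] at h1
    omega
  obtain ⟨t, hts, htc⟩ := Set.exists_subset_card_eq hcard
  have hat : a ∉ t := fun h => (hts h) (by simp)
  have hbt : b ∉ t := fun h => (hts h) (by simp)
  obtain ⟨P, hP, hPf⟩ := h (insert a t) (by rw [Set.ncard_insert_of_notMem hat, htc]; omega)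
  obtain ⟨Q, hQ, hQf⟩ := h (insert b t) (by rw [Set.ncard_insert_of_notMem hbt, htc]; omega)
  have h1 := card_orbit_modEq P hP a
  have h2 := card_orbit_modEq Q hQ a
  rw [hPf] at h1
  rw [hQf] at h2
  have e1 : orbit G a ∩ insert a t = insert a (orbit G a ∩ t) := by
    rw [Set.inter_insert_of_mem (mem_orbit_self a)]
  have e2 : orbit G a ∩ insert b t = orbit G a ∩ t := by
    rw [Set.inter_insert_of_notMem hb]
  rw [e1, Set.ncard_insert_of_notMem (fun h => hat h.2)] at h1
  rw [e2] at h2
  have h3 := h1.symm.trans h2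
  have h4 : p ∣ 1 := by
    have := (Nat.modEq_iff_dvd' (Nat.le_succ _)).mp h3.symm
    simpa using this
  exact hp.out.one_lt.ne' (Nat.dvd_one.mp h4)

theorem isMultiplyPretransitive {G α : Type*} [Group G] [MulAction G α] [Finite α] {p k : ℕ}
    [hp : Fact p.Prime] (hk : 1 ≤ k) (hkn : k < Nat.card α)
    (h : ∀ s : Set α, s.ncard = k → ∃ P : Subgroup G, IsPGroup p P ∧ fixedPoints P α = s) :
    IsMultiplyPretransitive G α k := by
  induction k generalizing G α with
  | zero => omega
  | succ k ih =>
    have htr := isPretransitive hk hkn h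
    rcases Nat.eq_zero_or_pos k with rfl | hk0
    · exact is_one_pretransitive_iff.mpr htr
    have hne : Nonempty α := by
      by_contra hc
      rw [not_nonempty_iff] at hc
      simp at hkn
    obtain ⟨a⟩ := hne
    rw [← Nat.succ_eq_add_one, ofStabilizer.isMultiplyPretransitive (a := a)]
    apply ih hk0
    · rw [nat_card_ofStabilizer_eq]; omega
    intro s hs
    have has : a ∉ Subtype.val '' s := notMem_val_image G s
    obtain ⟨P, hP, hPf⟩ := h (insert a (Subtype.val '' s)) (by
      rw [Set.ncard_insert_of_notMem has, Set.ncard_image_of_injective _ Subtype.val_injective, hs])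
    refine ⟨P.subgroupOf (stabilizer G a), ?_, ?_⟩
    · exact hP.comap_of_injective _ (Subgroup.subtype_injective _)
    · have hle : P ≤ stabilizer G a := by
        intro g hg
        have : a ∈ fixedPoints P α := by rw [hPf]; exact Set.mem_insert _ _
        exact this ⟨g, hg⟩
      ext x
      constructor
      · intro hx
        have : (x : α) ∈ fixedPoints P α := by
          intro g
          have := hx ⟨⟨g.1, hle g.2⟩, by simpa [Subgroup.mem_subgroupOf] using g.2⟩
          exact congrArg Subtype.val this
        rw [hPf] at this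
        rcases this with h1 | ⟨y, hy, hyx⟩
        · exact absurd h1 (neq_of_mem_ofStabilizer G a)
        · rwa [← Subtype.ext hyx]
      · intro hx g
        have : (x : α) ∈ fixedPoints P α := by
          rw [hPf]; exact Set.mem_insert_of_mem _ ⟨x, hx, rfl⟩
        apply Subtype.ext
        exact this ⟨g.1.1, g.2⟩

end Cfsg.Agent.Lib.Helper12.Gleason
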