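import Mathlib
import Cfsg.Agent.Lib.Helper12.PrimeDegree3

set_option autoImplicit false

/-! Subgroups of index `p` in doubly transitive groups of prime degree `p`. -/

namespace Cfsg.Agent.Lib.Helper12.IndexP

open MulAction

theorem card_modEq_of_involutive {β : Type*} [Finite β] (f : β → β) (hf : Function.Involutive f) :
    Nat.card β ≡ Nat.card {b // f b = b} [MOD 2] := by
  classical
  haveI : Fintype β := Fintype.ofFinite β
  let f' : Function.End β := f
  have h := Equiv.Perm.card_fixedPoints_modEq (α := β) (f := f') (p := 2) (n := 1) (by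
    rw [pow_one, pow_two]
    funext b
    exact hf b)
  rw [← Nat.card_eq_fintype_card, ← Nat.card_eq_fintype_card] at h
  exact h

variable {α : Type*} [Fintype α] [DecidableEq α] {p : ℕ} [hp : Fact p.Prime]

/-- A subgroup of index `p`, of order prime to `p`, containing the reflection `j ↦ -j`, fixes the
origin, if the group is doubly transitive. -/
theorem fixes_origin (hp2 : p ≠ 2) (G : Subgroup (Equiv.Perm α))
    (h2 : IsMultiplyPretransitive G α 2)
    (t s : G) (e : ZMod p ≃ α) (hto : orderOf (t : Equiv.Perm α) = p)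
    (he : ∀ j c : ZMod p, e (j + c) = ((t : Equiv.Perm α) ^ c.val) (e j))
    (hs : ∀ j : ZMod p, (s : Equiv.Perm α) (e j) = e (-j))
    (H : Subgroup G) (hH : H.index = p) (hpH : ¬ p ∣ Nat.card H) (hsH : s ∈ H) :
    ∀ h ∈ H, h • e 0 = e 0 := by
  classical
  haveI : Fact (1 < p) := ⟨hp.out.one_lt⟩
  have h2ne : (2 : ZMod p) ≠ 0 := by
    intro h
    have : ((2 : ℕ) : ZMod p) = 0 := by exact_mod_cast h
    rw [ZMod.natCast_eq_zero_iff] at this
    exact hp2 ((Nat.prime_dvd_prime_iff_eq hp.out Nat.prime_two).mp this)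
  let Δ : Set α := {x | ∃ h ∈ H, h • e 0 = x}
  have hΔ : ∀ h ∈ H, ∀ x, x ∈ Δ → h • x ∈ Δ := by
    rintro h hh _ ⟨k, hk, rfl⟩
    exact ⟨h * k, H.mul_mem hh hk, mul_smul _ _ _⟩
  have hΔ' : ∀ h ∈ H, ∀ x, h • x ∈ Δ ↔ x ∈ Δ := by
    intro h hh x
    refine ⟨fun hx => ?_, hΔ h hh x⟩
    have := hΔ h⁻¹ (H.inv_mem hh) _ hx
    rwa [inv_smul_smul] at this
  let D : ZMod p → Prop := fun j => e j ∈ Δ
  have hD0 : D 0 := ⟨1, H.one_mem, one_smul _ _⟩
  have hDneg : ∀ j, D j → D (-j) := by
    intro j hj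
    have := hΔ s hsH _ hj
    change e (-j) ∈ Δ
    rw [← hs]
    exact this
  have htpow : ∀ j c : ZMod p, (t ^ c.val : G) • e j = e (j + c) := fun j c => (he j c).symm
  have htinv : ∀ j c : ZMod p, (t ^ c.val : G)⁻¹ • e j = e (j - c) := by
    intro j c
    rw [inv_smul_eq_iff, htpow, sub_add_cancel]
  -- the cosets
  let ε : ZMod p → G ⧸ H := fun c => ((t ^ c.val : G) : G ⧸ H)
  have hεinj : Function.Injective ε := by
    intro c c' hcc
    have h1 : (t ^ c.val)⁻¹ * t ^ c'.val ∈ H := QuotientGroup.eq.mp hcc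
    have h3 : (t ^ c.val)⁻¹ * t ^ c'.val ∈ Subgroup.zpowers t :=
      Subgroup.mul_mem _ (Subgroup.inv_mem _ (Subgroup.npow_mem_zpowers t _))
        (Subgroup.npow_mem_zpowers t _)
    have hcop : Nat.Coprime (Nat.card (Subgroup.zpowers t)) (Nat.card H) := by
      rw [Nat.card_zpowers, ← Subgroup.orderOf_coe, hto]
      exact (Nat.Prime.coprime_iff_not_dvd hp.out).mpr hpH
    have h4 := Subgroup.inf_eq_bot_of_coprime hcop
    have h5 : (t ^ c.val)⁻¹ * t ^ c'.val = 1 := by
      have : (t ^ c.val)⁻¹ * t ^ c'.val ∈ Subgroup.zpowers t ⊓ H := Subgroup.mem_inf.mpr ⟨h3, h1⟩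
      rwa [h4, Subgroup.mem_bot] at this
    have h6 : t ^ c.val = t ^ c'.val := inv_mul_eq_one.mp h5
    have h7 := htpow 0 c
    rw [h6, htpow, zero_add, zero_add] at h7
    exact (e.injective h7).symm
  have hεbij : Function.Bijective ε := by
    apply hεinj.bijective_of_nat_card_le
    rw [Nat.card_zmod]
    exact hH.le
  let ε' : ZMod p ≃ G ⧸ H := Equiv.ofBijective ε hεbij
  let Bq : G ⧸ H → α → Prop := fun q x => ∃ k : G, (k : G ⧸ H) = q ∧ k⁻¹ • x ∈ Δ
  have hBq : ∀ (k : G) x, Bq (k : G ⧸ H) x ↔ k⁻¹ • x ∈ Δ := by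
    intro k x
    constructor
    · rintro ⟨k', hk', hx⟩
      have h1 : k⁻¹ * k' ∈ H := QuotientGroup.eq.mp hk'.symm
      have := hΔ _ h1 _ hx
      rwa [mul_smul, smul_inv_smul] at this
    · intro hx
      exact ⟨k, rfl, hx⟩
  have hBqinv : ∀ (g : G) q x, Bq (g • q) (g • x) ↔ Bq q x := by
    intro g q x
    induction q using QuotientGroup.induction_on with
    | H k =>
      have : g • (k : G ⧸ H) = ((g * k : G) : G ⧸ H) := rfl
      rw [this, hBq, hBq, mul_inv_rev, mul_smul, inv_smul_smul]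
  let N : α → α → ℕ := fun x y => Nat.card {q : G ⧸ H // Bq q x ∧ Bq q y}
  have hN : ∀ (g : G) x y, N (g • x) (g • y) = N x y := by
    intro g x y
    symm
    apply Nat.card_congr
    exact Equiv.subtypeEquiv (MulAction.toPerm g) (fun q => by
      rw [MulAction.toPerm_apply, hBqinv, hBqinv])
  have hNT : ∀ x : ZMod p, N (e 0) (e x) = Nat.card {c : ZMod p // D (-c) ∧ D (x - c)} := by
    intro x
    symm
    apply Nat.card_congr
    exact Equiv.subtypeEquiv ε' (fun c => by
      change _ ↔ Bq ((t ^ c.val : G) : G ⧸ H) (e 0) ∧ Bq ((t ^ c.val : G) : G ⧸ H) (e x)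
      rw [hBq, hBq, htinv, htinv, zero_sub])
  have hfix : ∀ j c : ZMod p, j + j - c = c → c = j := by
    intro j c h
    have : (2 : ZMod p) * (c - j) = 0 := by linear_combination -h
    exact sub_eq_zero.mp ((mul_eq_zero.mp this).resolve_left h2ne)
  have hpar : ∀ j : ZMod p, Nat.card {c : ZMod p // D (-c) ∧ D (j + j - c)}
      ≡ (if D j then 1 else 0) [MOD 2] := by
    intro j
    let ι : {c : ZMod p // D (-c) ∧ D (j + j - c)} → {c : ZMod p // D (-c) ∧ D (j + j - c)} :=
      fun c => ⟨j + j - c.1, hDneg _ c.2.2, by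
        have := hDneg _ c.2.1
        rwa [neg_neg, ← sub_sub_cancel (j + j) c.1] at this⟩
    have hι : Function.Involutive ι := fun c => Subtype.ext (sub_sub_cancel _ _)
    refine (card_modEq_of_involutive ι hι).trans ?_
    have hcard : Nat.card {b // ι b = b} = if D j then 1 else 0 := by
      split_ifs with hj
      · rw [Nat.card_eq_one_iff_unique]
        constructor
        · refine ⟨fun a b => ?_⟩
          apply Subtype.ext
          apply Subtype.ext
          rw [hfix j a.1.1 (congrArg Subtype.val a.2), hfix j b.1.1 (congrArg Subtype.val b.2)]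
        · exact ⟨⟨⟨j, hDneg j hj, by rwa [add_sub_cancel_right]⟩,
            Subtype.ext (add_sub_cancel_right j j)⟩⟩
      · rw [Nat.card_eq_zero]
        left
        refine ⟨fun a => hj ?_⟩
        have h1 := hfix j a.1.1 (congrArg Subtype.val a.2)
        have h3 := hDneg _ a.1.2.1
        rwa [neg_neg, h1] at h3
    rw [hcard]
  have hsame : ∀ j j' : ZMod p, j ≠ 0 → j' ≠ 0 → D j → D j' := by
    intro j j' hj hj' hDj
    have hdbl : ∀ i : ZMod p, i ≠ 0 → e 0 ≠ e (i + i) := by
      intro i hi h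
      have := e.injective h
      apply hi
      have h3 : (2 : ZMod p) * i = 0 := by linear_combination -this
      exact (mul_eq_zero.mp h3).resolve_left h2ne
    obtain ⟨g, hg0, hg1⟩ := is_two_pretransitive_iff.mp h2 (hdbl j hj) (hdbl j' hj')
    have h1 := hN g (e 0) (e (j + j))
    rw [hg0, hg1, hNT, hNT] at h1
    have h3 := hpar j
    have h4 := hpar j'
    rw [if_pos hDj, ← h1] at h3
    by_contra hn
    rw [if_neg hn] at h4
    have := h3.symm.trans h4
    exact absurd this (by decide)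
  by_cases h1 : D 1
  · exfalso
    apply hpH
    have hall : ∀ x : α, x ∈ orbit H (e 0) := by
      intro x
      obtain ⟨j, rfl⟩ := e.surjective x
      have hj : D j := by
        by_cases hj0 : j = 0
        · rw [hj0]; exact hD0
        · exact hsame 1 j one_ne_zero hj0 h1
      obtain ⟨h, hh, hx⟩ := hj
      exact ⟨⟨h, hh⟩, hx⟩
    have h3 : (orbit H (e 0)).ncard = p := by
      rw [Set.eq_univ_of_forall hall, Set.ncard_univ, Nat.card_congr e.symm, Nat.card_zmod]
    rw [← h3, ← index_stabilizer]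
    exact Subgroup.index_dvd_card _
  · intro h hh
    obtain ⟨j, hj⟩ := e.surjective (h • e 0)
    have hDj : D j := ⟨h, hh, hj.symm⟩
    by_cases hj0 : j = 0
    · rw [← hj, hj0]
    · exact absurd (hsame j 1 hj0 one_ne_zero hDj) h1

end Cfsg.Agent.Lib.Helper12.IndexP
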