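import Mathlib

set_option autoImplicit false

/-! Linear groups over the prime field acting freely on the non-zero vectors. -/

namespace Cfsg.Agent.Lib.Helper12.LinReg

variable {p : ℕ} [Fact p.Prime] {V : Type*} [AddCommGroup V] [Module (ZMod p) V] [Finite V]
variable {G : Type*} [Group G]

/-- A group acting freely on the non-zero vectors has order dividing `|W| - 1` for each
invariant subspace `W`. -/
theorem card_dvd (ρ : G →* (V ≃ₗ[ZMod p] V))
    (hfree : ∀ g : G, ∀ v : V, v ≠ 0 → ρ g v = v → g = 1) (W : Submodule (ZMod p) V)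
    (hW : ∀ g : G, ∀ v ∈ W, ρ g v ∈ W) :
    Nat.card G ∣ p ^ Module.finrank (ZMod p) W - 1 := by
  classical
  let X := {v : V // v ∈ W ∧ v ≠ 0}
  letI : MulAction G X :=
    { smul := fun g v => ⟨ρ g v.1, hW g _ v.2.1, by
        intro h
        exact v.2.2 (by simpa using h)⟩
      one_smul := fun v => by
        apply Subtype.ext
        change ρ 1 v.1 = v.1
        simp
      mul_smul := fun g h v => by
        apply Subtype.ext
        change ρ (g * h) v.1 = ρ g (ρ h v.1)
        simp }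
  have hst : ∀ b : X, MulAction.stabilizer G b = ⊥ := by
    intro b
    rw [eq_bot_iff]
    intro g hg
    rw [MulAction.mem_stabilizer_iff] at hg
    have : ρ g b.1 = b.1 := congrArg Subtype.val hg
    exact Subgroup.mem_bot.mpr (hfree g b.1 b.2.2 this)
  have e := MulAction.selfEquivOrbitsQuotientProd hst
  have hX : Nat.card X = p ^ Module.finrank (ZMod p) W - 1 := by
    have h1 : Nat.card W = p ^ Module.finrank (ZMod p) W := by
      rw [Module.natCard_eq_pow_finrank (K := ZMod p), Nat.card_zmod]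
    have e2 : X ≃ {w : W // w ≠ 0} :=
      { toFun := fun v => ⟨⟨v.1, v.2.1⟩, fun h => v.2.2 (congrArg Subtype.val h)⟩
        invFun := fun w => ⟨w.1.1, w.1.2, fun h => w.2 (Subtype.ext h)⟩
        left_inv := fun v => rfl
        right_inv := fun w => rfl }
    rw [Nat.card_congr e2, ← h1]
    haveI : Fintype W := Fintype.ofFinite _
    rw [Nat.card_eq_fintype_card, Nat.card_eq_fintype_card, Fintype.card_subtype_compl]
    simp
  rw [← hX, Nat.card_congr e, Nat.card_prod]
  exact Dvd.intro_left _ rfl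

/-- Minimal non-zero invariant subspaces exist. -/
theorem exists_minimal (ρ : G →* (V ≃ₗ[ZMod p] V)) (W₀ : Submodule (ZMod p) V) (h0 : W₀ ≠ ⊥)
    (hW₀ : ∀ g : G, ∀ v ∈ W₀, ρ g v ∈ W₀) :
    ∃ W : Submodule (ZMod p) V, W ≤ W₀ ∧ W ≠ ⊥ ∧ (∀ g : G, ∀ v ∈ W, ρ g v ∈ W) ∧
      ∀ W' : Submodule (ZMod p) V, W' ≤ W → (∀ g : G, ∀ v ∈ W', ρ g v ∈ W') →
        W' = ⊥ ∨ W' = W := by
  classical
  have wf : WellFounded ((· < ·) : Submodule (ZMod p) V → Submodule (ZMod p) V → Prop) :=
    wellFounded_lt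
  obtain ⟨W, ⟨hW1, hW2, hW3⟩, hmin⟩ := wf.has_min
    {W : Submodule (ZMod p) V | W ≤ W₀ ∧ W ≠ ⊥ ∧ ∀ g : G, ∀ v ∈ W, ρ g v ∈ W} ⟨W₀, le_rfl, h0, hW₀⟩
  refine ⟨W, hW1, hW2, hW3, fun W' hW' hinv => ?_⟩
  by_cases hb : W' = ⊥
  · exact Or.inl hb
  · right
    by_contra hne
    exact hmin W' ⟨hW'.trans hW1, hb, hinv⟩ (lt_of_le_of_ne hW' hne)

open scoped IsMulCommutative in
/-- A commutative group acting freely on non-zero vectors is cyclic. -/
theorem isCyclic_of_minimal [Finite G] (hcomm : ∀ a b : G, a * b = b * a)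
    (ρ : G →* (V ≃ₗ[ZMod p] V))
    (hfree : ∀ g : G, ∀ v : V, v ≠ 0 → ρ g v = v → g = 1) (W : Submodule (ZMod p) V)
    (hne : W ≠ ⊥)
    (hW : ∀ g : G, ∀ v ∈ W, ρ g v ∈ W)
    (hmin : ∀ W' : Submodule (ZMod p) V, W' ≤ W → (∀ g : G, ∀ v ∈ W', ρ g v ∈ W') →
        W' = ⊥ ∨ W' = W) : IsCyclic G := by
  classical
  let r : G → Module.End (ZMod p) W := fun g => (ρ g : V →ₗ[ZMod p] V).restrict (hW g)
  have hr : ∀ g (w : W), ((r g w : W) : V) = ρ g w := fun g w => rfl
  have hr1 : r 1 = 1 := by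
    ext w; simp [hr]
  have hrm : ∀ a b, r (a * b) = r a * r b := by
    intro a b; ext w; simp [hr]
  have hc : ∀ x ∈ Set.range r, ∀ y ∈ Set.range r, x * y = y * x := by
    rintro _ ⟨a, rfl⟩ _ ⟨b, rfl⟩
    rw [← hrm, ← hrm, hcomm]
  let R := Algebra.adjoin (ZMod p) (Set.range r)
  haveI : IsMulCommutative R := Algebra.isMulCommutative_adjoin (ZMod p) hc
  obtain ⟨w₀, hw₀W, hw₀⟩ := (Submodule.ne_bot_iff W).mp hne
  have hcommR : ∀ x ∈ R, ∀ g, x * r g = r g * x := by
    intro x hx g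
    have := Algebra.commute_of_mem_adjoin_of_forall_mem_commute (a := r g) hx (by
      rintro _ ⟨b, rfl⟩
      exact hc _ ⟨g, rfl⟩ _ ⟨b, rfl⟩)
    exact this.eq.symm
  have hinj : ∀ x ∈ R, x ≠ 0 → ∀ w, x w = 0 → w = 0 := by
    intro x hx hx0 w hw
    let W' : Submodule (ZMod p) V := (LinearMap.ker x).map W.subtype
    have hW'le : W' ≤ W := by
      rintro _ ⟨u, _, rfl⟩
      exact u.2
    have hW'inv : ∀ g : G, ∀ v ∈ W', ρ g v ∈ W' := by
      rintro g _ ⟨u, hu, rfl⟩
      refine ⟨r g u, ?_, rfl⟩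
      have h1 : x (r g u) = (x * r g) u := rfl
      have hu' : x u = 0 := hu
      change x (r g u) = 0
      rw [h1, hcommR x hx g]
      change r g (x u) = 0
      rw [hu', map_zero]
    rcases hmin W' hW'le hW'inv with h | h
    · have : (w : V) ∈ W' := ⟨w, hw, rfl⟩
      rw [h] at this
      exact Subtype.ext ((Submodule.mem_bot _).mp this)
    · exfalso
      apply hx0
      ext u
      have : (u : V) ∈ W' := by rw [h]; exact u.2
      obtain ⟨u', hu', hu'e⟩ := this
      have : u' = u := Subtype.ext hu'e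
      subst this
      have hu'' : x u' = 0 := hu'
      rw [hu'']
      rfl
  haveI : Nontrivial R := by
    refine ⟨⟨1, 0, ?_⟩⟩
    intro h
    have h2 : ((1 : R) : Module.End (ZMod p) W) ⟨w₀, hw₀W⟩ = ((0 : R) : Module.End (ZMod p) W) ⟨w₀, hw₀W⟩ := by
      rw [h]
    apply hw₀
    simpa using congrArg Subtype.val h2
  haveI : NoZeroDivisors R := by
    refine ⟨?_⟩
    intro a b hab
    by_cases ha : a = 0
    · exact Or.inl ha
    · right
      apply Subtype.ext
      ext u
      have h1 : (a : Module.End (ZMod p) W) ((b : Module.End (ZMod p) W) u) = 0 := by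
        have : ((a * b : R) : Module.End (ZMod p) W) u = 0 := by rw [hab]; rfl
        exact this
      have := hinj a.1 a.2 (fun h => ha (Subtype.ext h)) _ h1
      rw [this]
      rfl
  haveI : IsDomain R := NoZeroDivisors.to_isDomain R
  let f : G →* R :=
    { toFun := fun g => ⟨r g, Algebra.subset_adjoin ⟨g, rfl⟩⟩
      map_one' := Subtype.ext hr1
      map_mul' := fun a b => Subtype.ext (hrm a b) }
  refine isCyclic_of_injective_ringHom f ((injective_iff_map_eq_one f).mpr ?_)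
  intro g hg
  have h1 : r g = 1 := congrArg Subtype.val hg
  apply hfree g w₀ hw₀
  have := hr g ⟨w₀, hw₀W⟩
  rw [h1] at this
  exact this.symm

end Cfsg.Agent.Lib.Helper12.LinReg
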