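import Cfsg.Agent.Lib.Helper14.MinIdx.Defs

set_option autoImplicit false

/-! Piece P10 of S2140 (minimal index of `PSL_n(q)`): one regular orbit plus fixed points. -/

namespace Cfsg.Agent.Lib.Helper12.MinIdx

open Matrix Cfsg.Agent.Lib.Helper57.RootSL Cfsg.Agent.Lib.Helper14.MinIdx

section
variable {n : ℕ} {F : Type*} [Field F] {Ω : Type*} [MulAction (SpecialLinearGroup (Fin n) F) Ω]

/-- the points fixed by all transvections with centre `c` -/
def Phi (Ω : Type*) [MulAction (SpecialLinearGroup (Fin n) F) Ω] (c : Fin n → F) : Set Ω :=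
  {ω | ∀ f : Fin n → F, f ⬝ᵥ c = 0 → tv c f • ω = ω}

lemma smul_mem_Phi (g : SpecialLinearGroup (Fin n) F) {c : Fin n → F} {ω : Ω} (h : ω ∈ Phi Ω c) :
    g • ω ∈ Phi Ω ((g : Matrix (Fin n) (Fin n) F) *ᵥ c) := by
  intro f hf
  have h1 : (f ᵥ* (g : Matrix (Fin n) (Fin n) F)) ⬝ᵥ c = 0 := by
    rw [← Matrix.dotProduct_mulVec]; exact hf
  have h2 := conj_tv g h1
  have h3 : (f ᵥ* (g : Matrix (Fin n) (Fin n) F)) ᵥ*
      ((g⁻¹ : SpecialLinearGroup (Fin n) F) : Matrix (Fin n) (Fin n) F) = f := by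
    rw [Matrix.vecMul_vecMul, mul_inv_val, Matrix.vecMul_one]
  rw [h3] at h2
  rw [← h2, mul_smul, mul_smul, inv_smul_smul, h _ h1]

lemma mem_Phi_mulVec_iff (g : SpecialLinearGroup (Fin n) F) {c : Fin n → F} {ω : Ω} :
    ω ∈ Phi Ω ((g : Matrix (Fin n) (Fin n) F) *ᵥ c) ↔ g⁻¹ • ω ∈ Phi Ω c := by
  constructor
  · intro h
    have := smul_mem_Phi g⁻¹ h
    rwa [Matrix.mulVec_mulVec, inv_mul_val, Matrix.one_mulVec] at this
  · intro h
    have := smul_mem_Phi g h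
    rwa [smul_inv_smul] at this

lemma Phi_smul_le {l : F} (c : Fin n → F) : Phi Ω c ⊆ Phi Ω (l • c) := by
  intro ω h f hf
  rw [tv_smul]
  apply h
  rw [smul_dotProduct, ← dotProduct_smul]
  exact hf

lemma Phi_smul {l : F} (hl : l ≠ 0) (c : Fin n → F) : Phi Ω (l • c) = Phi Ω c := by
  apply Set.Subset.antisymm
  · have := Phi_smul_le (Ω := Ω) (l := l⁻¹) (l • c)
    rwa [smul_smul, inv_mul_cancel₀ hl, one_smul] at this
  · exact Phi_smul_le c

open scoped LinearAlgebra.Projectivization in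
/-- `SL_n` moves an independent pair to any other one, up to scalars -/
lemma exists_move {c0 c1 a b : Fin n → F} (hc0 : c0 ≠ 0) (hc : ∀ l : F, c1 ≠ l • c0) (ha : a ≠ 0)
    (hab : ∀ l : F, b ≠ l • a) :
    ∃ (g : SpecialLinearGroup (Fin n) F) (l m : F), l ≠ 0 ∧ m ≠ 0 ∧
      (g : Matrix (Fin n) (Fin n) F) *ᵥ c0 = l • a ∧ (g : Matrix (Fin n) (Fin n) F) *ᵥ c1 = m • b := by
  have hc1 : c1 ≠ 0 := by simpa using hc 0
  have hb : b ≠ 0 := by simpa using hab 0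
  have h2 : ∀ {a b c d : ℙ F (Fin n → F)} (_ : a ≠ b) (_ : c ≠ d),
      ∃ g : SpecialLinearGroup (Fin n) F, g • a = c ∧ g • b = d :=
    (MulAction.is_two_pretransitive_iff (G := SpecialLinearGroup (Fin n) F)
      (α := ℙ F (Fin n → F))).1 inferInstance
  have hne1 : Projectivization.mk F c0 hc0 ≠ Projectivization.mk F c1 hc1 := by
    intro h
    obtain ⟨l, hl⟩ := (Projectivization.mk_eq_mk_iff' F _ _ hc1 hc0).1 h.symm
    exact hc l hl.symm
  have hne2 : Projectivization.mk F a ha ≠ Projectivization.mk F b hb := by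
    intro h
    obtain ⟨l, hl⟩ := (Projectivization.mk_eq_mk_iff' F _ _ hb ha).1 h.symm
    exact hab l hl.symm
  obtain ⟨g, hg1, hg2⟩ := h2 hne1 hne2
  rw [Projectivization.smul_mk, Projectivization.mk_eq_mk_iff'] at hg1 hg2
  obtain ⟨l, hl⟩ := hg1
  obtain ⟨m, hm⟩ := hg2
  have e0 : (g : Matrix (Fin n) (Fin n) F) *ᵥ c0 = l • a := hl.symm
  have e1 : (g : Matrix (Fin n) (Fin n) F) *ᵥ c1 = m • b := hm.symm
  refine ⟨g, l, m, ?_, ?_, e0, e1⟩
  · rintro rfl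
    rw [zero_smul] at e0
    exact mulVec_ne_zero g hc0 e0
  · rintro rfl
    rw [zero_smul] at e1
    exact mulVec_ne_zero g hc1 e1

end

lemma P10_arith (q n φ0 d : ℕ) (hq : 2 ≤ q) (hn : 1 ≤ n) (hd : d = φ0 + q ^ (n - 1))
    (h : d * q ^ n ≤ q * ((q ^ n - 1) * φ0) + d * q) : q ^ n - 1 ≤ (q - 1) * d := by
  obtain ⟨m, rfl⟩ : ∃ m, n = m + 1 := ⟨n - 1, by omega⟩
  simp only [Nat.add_sub_cancel] at hd
  set Q := q ^ m with hQ
  have hQ1 : 1 ≤ Q := Nat.one_le_pow _ _ (by omega)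
  have hpow : q ^ (m + 1) = q * Q := by rw [pow_succ, mul_comm]
  rw [hpow] at h ⊢
  obtain ⟨k, rfl⟩ : ∃ k, q = k + 1 := ⟨q - 1, by omega⟩
  obtain ⟨N, hN⟩ : ∃ N, (k + 1) * Q = N + 1 := ⟨(k + 1) * Q - 1, by
    have : 1 ≤ (k + 1) * Q := Nat.mul_pos (by omega) hQ1
    omega⟩
  rw [hN] at h ⊢
  simp only [Nat.add_sub_cancel]
  subst hd
  -- h : (φ0 + Q) * (N + 1) ≤ (k + 1) * (N * φ0) + (φ0 + Q) * (k + 1)
  have h1 : (k + 1) * ((φ0 + Q) * Q) ≤ (k + 1) * ((N + 1) * φ0 + Q) := by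
    calc (k + 1) * ((φ0 + Q) * Q) = (φ0 + Q) * ((k + 1) * Q) := by ring
      _ = (φ0 + Q) * (N + 1) := by rw [hN]
      _ ≤ (k + 1) * (N * φ0) + (φ0 + Q) * (k + 1) := h
      _ = (k + 1) * ((N + 1) * φ0 + Q) := by ring
  have h2 : (φ0 + Q) * Q ≤ (N + 1) * φ0 + Q := Nat.le_of_mul_le_mul_left h1 (by omega)
  rw [← hN] at h2
  have h3 : Q * (φ0 + Q) ≤ Q * ((k + 1) * φ0 + 1) := by
    calc Q * (φ0 + Q) = (φ0 + Q) * Q := by ring
      _ ≤ (k + 1) * Q * φ0 + Q := h2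
      _ = Q * ((k + 1) * φ0 + 1) := by ring
  have h4 : φ0 + Q ≤ (k + 1) * φ0 + 1 := Nat.le_of_mul_le_mul_left h3 (by omega)
  have h5 : Q ≤ k * φ0 + 1 := by nlinarith
  have h6 : N + 1 ≤ k * (φ0 + Q) + 1 := by
    rw [← hN]
    nlinarith
  omega

theorem P10 {n : ℕ} {F : Type*} [Field F] [Fintype F] (hn : 3 ≤ n) {Ω : Type*} [Fintype Ω]
    [MulAction (SpecialLinearGroup (Fin n) F) Ω]
    [MulAction.IsPretransitive (SpecialLinearGroup (Fin n) F) Ω]
    (φ0 : ℕ) (hφ : 1 ≤ φ0) (hd : Fintype.card Ω = φ0 + Fintype.card F ^ (n - 1))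
    (hΦ : ∀ c : Fin n → F, c ≠ 0 →
      Nat.card {ω : Ω // ∀ f : Fin n → F, f ⬝ᵥ c = 0 → tv c f • ω = ω} = φ0)
    (htr : ∀ c : Fin n → F, c ≠ 0 → ∀ ω ω' : Ω, (∃ f : Fin n → F, f ⬝ᵥ c = 0 ∧ tv c f • ω ≠ ω) →
      (∃ f : Fin n → F, f ⬝ᵥ c = 0 ∧ tv c f • ω' ≠ ω') → ∃ f : Fin n → F, f ⬝ᵥ c = 0 ∧ tv c f • ω = ω') :
    Fintype.card F ^ n - 1 ≤ (Fintype.card F - 1) * Fintype.card Ω := by
  classical
  set q := Fintype.card F with hq
  have hq2 : 2 ≤ q := Fintype.one_lt_card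
  have hcard : ∀ c : Fin n → F, c ≠ 0 → (Phi Ω c).ncard = φ0 := by
    intro c hc
    rw [← Nat.card_coe_set_eq]
    exact hΦ c hc
  have hne_univ : ∀ c : Fin n → F, c ≠ 0 → Phi Ω c ≠ Set.univ := by
    intro c hc h
    have h1 := hcard c hc
    rw [h, Set.ncard_univ, Nat.card_eq_fintype_card, hd] at h1
    have : 0 < q ^ (n - 1) := Nat.pow_pos (by omega)
    omega
  have hconst : ∀ c0 : Fin n → F, c0 ≠ 0 → ¬ (∀ a : Fin n → F, a ≠ 0 → Phi Ω a = Phi Ω c0) := by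
    intro c0 hc0 hall
    have hne : (Phi Ω c0).Nonempty := by
      rw [← Set.ncard_pos, hcard c0 hc0]
      omega
    obtain ⟨ω, hω⟩ := hne
    apply hne_univ c0 hc0
    rw [Set.eq_univ_iff_forall]
    intro ω'
    obtain ⟨g, rfl⟩ := MulAction.exists_smul_eq (SpecialLinearGroup (Fin n) F) ω ω'
    have := smul_mem_Phi g hω
    rwa [hall _ (mulVec_ne_zero g hc0)] at this
  -- (1)
  have h1 : ∀ c0 c1 : Fin n → F, c0 ≠ 0 → (∀ l : F, c1 ≠ l • c0) → ¬ Phi Ω c1 ⊆ Phi Ω c0 := by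
    intro c0 c1 hc0 hc hsub
    have hc1 : c1 ≠ 0 := by simpa using hc 0
    have heq : Phi Ω c1 = Phi Ω c0 :=
      Set.eq_of_subset_of_ncard_le hsub (by rw [hcard c0 hc0, hcard c1 hc1])
    apply hconst c0 hc0
    have hpair : ∀ a b : Fin n → F, a ≠ 0 → (∀ l : F, b ≠ l • a) → Phi Ω a = Phi Ω b := by
      intro a b ha hab
      obtain ⟨g, l, m, hl, hm, e0, e1⟩ := exists_move hc0 hc ha hab
      ext ω
      rw [← Phi_smul hl a, ← e0, mem_Phi_mulVec_iff, ← heq, ← mem_Phi_mulVec_iff, e1, Phi_smul hm]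
    intro a ha
    by_cases hlin : ∃ l : F, a = l • c0
    · obtain ⟨l, rfl⟩ := hlin
      have hl : l ≠ 0 := by
        rintro rfl
        simp at ha
      exact Phi_smul hl c0
    · push Not at hlin
      exact (hpair c0 a hc0 hlin).symm
  -- (2)
  have h2 : ∀ (c0 c1 : Fin n → F) (ω0 : Ω), c0 ≠ 0 → (∀ l : F, c1 ≠ l • c0) → ω0 ∉ Phi Ω c0 →
      ∃ l : F, ω0 ∈ Phi Ω (c1 + l • c0) := by
    intro c0 c1 ω0 hc0 hc hω0
    obtain ⟨ω1, hω1, hω1'⟩ := Set.not_subset.1 (h1 c0 c1 hc0 hc)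
    have hmove : ∀ ω : Ω, ω ∉ Phi Ω c0 → ∃ f : Fin n → F, f ⬝ᵥ c0 = 0 ∧ tv c0 f • ω ≠ ω := by
      intro ω hω
      by_contra hcon
      push Not at hcon
      exact hω hcon
    obtain ⟨f, hf, he⟩ := htr c0 hc0 ω1 ω0 (hmove ω1 hω1') (hmove ω0 hω0)
    refine ⟨f ⬝ᵥ c1, ?_⟩
    have := smul_mem_Phi (tv c0 f) hω1
    rwa [he, tv_mulVec hf] at this
  -- (3')
  have h3 : ∀ ω : Ω, ∃ c0 : Fin n → F, c0 ≠ 0 ∧ ω ∉ Phi Ω c0 := by
    intro ω
    by_contra hcon
    push Not at hcon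
    let c : Fin n → F := bv ⟨0, by omega⟩
    have hc : c ≠ 0 := bv_ne_zero _
    apply hne_univ c hc
    rw [Set.eq_univ_iff_forall]
    intro ω'
    obtain ⟨g, rfl⟩ := MulAction.exists_smul_eq (SpecialLinearGroup (Fin n) F) ω ω'
    have h4 := hcon _ (mulVec_ne_zero g⁻¹ hc)
    have := smul_mem_Phi g h4
    rwa [Matrix.mulVec_mulVec, mul_inv_val, Matrix.one_mulVec] at this
  -- counting
  let s : Finset (Fin n → F) := Finset.univ.filter (fun c => c ≠ 0)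
  have hV : Fintype.card (Fin n → F) = q ^ n := by
    rw [Fintype.card_fun, Fintype.card_fin]
  have hs : s.card = q ^ n - 1 := by
    rw [← hV]
    show (Finset.univ.filter (fun c : Fin n → F => c ≠ 0)).card = _
    rw [Finset.filter_ne', Finset.card_erase_of_mem (Finset.mem_univ _), Finset.card_univ]
  have hS : ∀ ω : Ω, q ^ n ≤ q * (s.filter (fun c => ω ∈ Phi Ω c)).card + q := by
    intro ω
    obtain ⟨c0, hc0, hω⟩ := h3 ω
    set S := s.filter (fun c => ω ∈ Phi Ω c) with hSdef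
    have hcov : (Finset.univ : Finset (Fin n → F)) ⊆
        (S ×ˢ (Finset.univ : Finset F)).image (fun p => p.1 - p.2 • c0) ∪
          (Finset.univ : Finset F).image (fun l => l • c0) := by
      intro v _
      rw [Finset.mem_union]
      by_cases hlin : ∃ l : F, v = l • c0
      · right
        obtain ⟨l, rfl⟩ := hlin
        exact Finset.mem_image.2 ⟨l, Finset.mem_univ _, rfl⟩
      · left
        push Not at hlin
        obtain ⟨l, hl⟩ := h2 c0 v ω hc0 hlin hω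
        refine Finset.mem_image.2 ⟨(v + l • c0, l), ?_, by simp⟩
        rw [Finset.mem_product]
        refine ⟨?_, Finset.mem_univ _⟩
        rw [hSdef, Finset.mem_filter, Finset.mem_filter]
        refine ⟨⟨Finset.mem_univ _, ?_⟩, hl⟩
        intro h0
        apply hlin (-l)
        rw [neg_smul]
        exact eq_neg_of_add_eq_zero_left h0
    have h4 := Finset.card_le_card hcov
    rw [Finset.card_univ, hV] at h4
    have h5 := Finset.card_union_le ((S ×ˢ (Finset.univ : Finset F)).image (fun p => p.1 - p.2 • c0))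
      ((Finset.univ : Finset F).image (fun l => l • c0))
    have h6 : ((S ×ˢ (Finset.univ : Finset F)).image (fun p => p.1 - p.2 • c0)).card ≤ S.card * q := by
      refine Finset.card_image_le.trans ?_
      rw [Finset.card_product, Finset.card_univ]
    have h7 : ((Finset.univ : Finset F).image (fun l => l • c0)).card ≤ q := by
      refine Finset.card_image_le.trans ?_
      rw [Finset.card_univ]
    rw [mul_comm q]
    omega
  have hdc := Finset.sum_card_bipartiteAbove_eq_sum_card_bipartiteBelow (s := s)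
    (t := (Finset.univ : Finset Ω)) (fun c ω => ω ∈ Phi Ω c)
  have hL : ∑ c ∈ s, ((Finset.univ : Finset Ω).bipartiteAbove (fun c ω => ω ∈ Phi Ω c) c).card
      = (q ^ n - 1) * φ0 := by
    rw [← hs, ← smul_eq_mul, ← Finset.sum_const]
    apply Finset.sum_congr rfl
    intro c hc
    have hc0 : c ≠ 0 := (Finset.mem_filter.1 hc).2
    rw [← hcard c hc0, Set.ncard_eq_toFinset_card']
    congr 1
    ext ω
    simp [Finset.bipartiteAbove]
  rw [hL] at hdc
  have hsum : ∑ ω : Ω, q ^ n ≤ ∑ ω : Ω, (q * (s.filter (fun c => ω ∈ Phi Ω c)).card + q) :=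
    Finset.sum_le_sum (fun ω _ => hS ω)
  rw [Finset.sum_const, Finset.card_univ, smul_eq_mul, Finset.sum_add_distrib, ← Finset.mul_sum,
    Finset.sum_const, Finset.card_univ, smul_eq_mul] at hsum
  have hR : ∑ ω : Ω, (s.filter (fun c => ω ∈ Phi Ω c)).card = (q ^ n - 1) * φ0 := by
    rw [hdc]
    rfl
  rw [hR] at hsum
  exact P10_arith q n φ0 _ hq2 (by omega) hd hsum

end Cfsg.Agent.Lib.Helper12.MinIdx
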