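import Cfsg.Agent.Lib.Helper14.MinIdx.Defs

set_option autoImplicit false

/-! Piece P9 of S2140 (minimal index of `PSL_n(q)`): "type C" is impossible. -/

namespace Cfsg.Agent.Lib.Helper12.MinIdx

open Matrix Cfsg.Agent.Lib.Helper57.RootSL Cfsg.Agent.Lib.Helper14.MinIdx

variable {n : ℕ} {F : Type*} [Field F]

/-- evaluation at `c` as a linear form on covectors -/
def evalAt (c : Fin n → F) : (Fin n → F) →ₗ[F] F where
  toFun f := f ⬝ᵥ c
  map_add' a b := add_dotProduct a b c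
  map_smul' r a := smul_dotProduct r a c

lemma ann_eq_ker (c : Fin n → F) : ann c = LinearMap.ker (evalAt c) := by
  ext f
  rfl

lemma le_finrank_ann (c : Fin n → F) : n ≤ Module.finrank F (ann c) + 1 := by
  have h1 := LinearMap.finrank_range_add_finrank_ker (evalAt c)
  have h2 : Module.finrank F (LinearMap.range (evalAt c)) ≤ 1 := by
    have := Submodule.finrank_le (LinearMap.range (evalAt c))
    rwa [Module.finrank_self] at this
  rw [Module.finrank_fin_fun, ← ann_eq_ker] at h1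
  omega

lemma finrank_ann_lt {c : Fin n → F} (hc : c ≠ 0) : Module.finrank F (ann c) < n := by
  have h1 : ann c ≠ ⊤ := by
    intro h
    obtain ⟨χ, hχ⟩ := exists_dot_eq_one hc
    have h2 : χ ∈ ann c := h ▸ Submodule.mem_top
    rw [mem_ann, hχ] at h2
    exact one_ne_zero h2
  have := Submodule.finrank_lt h1
  rwa [Module.finrank_fin_fun] at this

lemma finrank_le_inf_ann (W : Submodule F (Fin n → F)) (c : Fin n → F) :
    Module.finrank F W ≤ Module.finrank F (W ⊓ ann c : Submodule F (Fin n → F)) + 1 := by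
  have h1 := Submodule.finrank_sup_add_finrank_inf_eq W (ann c)
  have h2 : Module.finrank F (W ⊔ ann c : Submodule F (Fin n → F)) ≤ n := by
    have := Submodule.finrank_le (W ⊔ ann c)
    rwa [Module.finrank_fin_fun] at this
  have h3 := le_finrank_ann c
  omega

lemma exists_common_zero (W : Submodule F (Fin n → F)) (hW : Module.finrank F W < n) :
    ∃ x : Fin n → F, x ≠ 0 ∧ ∀ f ∈ W, f ⬝ᵥ x = 0 := by
  let B : (Fin n → F) →ₗ[F] (Fin n → F) →ₗ[F] F :=
    LinearMap.mk₂ F (fun x f => f ⬝ᵥ x) (fun a b f => dotProduct_add f a b)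
      (fun r a f => dotProduct_smul r f a) (fun x a b => add_dotProduct a b x)
      (fun r x a => smul_dotProduct r a x)
  let Ψ : (Fin n → F) →ₗ[F] (W →ₗ[F] F) := (LinearMap.lcomp F F W.subtype) ∘ₗ B
  have h1 : LinearMap.ker Ψ ≠ ⊥ := by
    apply LinearMap.ker_ne_bot_of_finrank_lt
    rw [Module.finrank_fin_fun]
    have : Module.finrank F (W →ₗ[F] F) = Module.finrank F W := Subspace.dual_finrank_eq
    rw [this]
    exact hW
  obtain ⟨x, hx, hx0⟩ := Submodule.exists_mem_ne_zero_of_ne_bot h1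
  refine ⟨x, hx0, ?_⟩
  intro f hf
  have h2 : Ψ x = 0 := hx
  have h3 := LinearMap.congr_fun h2 ⟨f, hf⟩
  exact h3

theorem P9 {n : ℕ} {F : Type*} [Field F] (hn : 3 ≤ n) (H : Subgroup (SpecialLinearGroup (Fin n) F))
    (D : (Fin n → F) → Submodule F (Fin n → F))
    (hD1 : ∀ c, c ≠ 0 → ∀ f, f ∈ D c ↔ (f ⬝ᵥ c = 0 ∧ tv c f ∈ H))
    (hD2 : ∀ c, c ≠ 0 → Module.finrank F (D c) = n - 2) : False := by
  -- (a)
  have ha : ∀ c c', c ≠ 0 → c' ≠ 0 → ∀ f ∈ D c, f ⬝ᵥ c' ≠ 0 → ∀ f' ∈ D c', f' ⬝ᵥ c = 0 →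
      f' ∈ D c := by
    intro c c' hc hc' f hf hfc f' hf' hf'c
    obtain ⟨h1, h2⟩ := (hD1 c hc f).1 hf
    obtain ⟨h3, h4⟩ := (hD1 c' hc' f').1 hf'
    have h5 : tv ((f ⬝ᵥ c') • c) f' ∈ H := by
      rw [← tv_comm h1 h3 hf'c]
      exact H.mul_mem (H.mul_mem (H.mul_mem h2 h4) (H.inv_mem h2)) (H.inv_mem h4)
    rw [tv_smul] at h5
    have h6 : (f ⬝ᵥ c') • f' ∈ D c :=
      (hD1 c hc _).2 ⟨by rw [smul_dotProduct, hf'c, smul_zero], h5⟩
    have := (D c).smul_mem (f ⬝ᵥ c')⁻¹ h6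
    rwa [smul_smul, inv_mul_cancel₀ hfc, one_smul] at this
  -- (b)
  have hb : ∀ c c', c ≠ 0 → c' ≠ 0 → (∃ f ∈ D c, f ⬝ᵥ c' ≠ 0) → ∃ f' ∈ D c', f' ⬝ᵥ c ≠ 0 := by
    rintro c c' hc hc' ⟨f, hf, hfc⟩
    by_contra hcon
    push Not at hcon
    have hle : D c' ≤ D c := fun f' hf' => ha c c' hc hc' f hf hfc f' hf' (hcon f' hf')
    have heq : D c' = D c := Submodule.eq_of_le_of_finrank_eq hle (by rw [hD2 c hc, hD2 c' hc'])
    rw [← heq] at hf
    exact hfc ((hD1 c' hc' f).1 hf).1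
  have hDann : ∀ c, c ≠ 0 → D c ≤ ann c := fun c hc f hf => ((hD1 c hc f).1 hf).1
  -- (c)
  let c : Fin n → F := bv ⟨0, by omega⟩
  have hc : c ≠ 0 := bv_ne_zero _
  have hDc : D c ≠ ⊥ := by
    intro h
    have h1 := hD2 c hc
    rw [h, finrank_bot] at h1
    omega
  obtain ⟨f, hf, hf0⟩ := Submodule.exists_mem_ne_zero_of_ne_bot hDc
  obtain ⟨c', hc'1⟩ := exists_dot_eq_one hf0
  rw [dotProduct_comm] at hc'1
  have hc' : c' ≠ 0 := by
    rintro rfl
    rw [dotProduct_zero] at hc'1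
    exact zero_ne_one hc'1
  obtain ⟨f', hf', hf'c⟩ := hb c c' hc hc' ⟨f, hf, by rw [hc'1]; exact one_ne_zero⟩
  have hinf : D c ⊓ ann c' ≤ D c ⊓ D c' := by
    intro g hg
    rw [Submodule.mem_inf] at hg ⊢
    exact ⟨hg.1, ha c' c hc' hc f' hf' hf'c g hg.1 hg.2⟩
  have hsup : Module.finrank F (D c ⊔ D c' : Submodule F (Fin n → F)) < n := by
    have h1 := Submodule.finrank_sup_add_finrank_inf_eq (D c) (D c')
    have h2 := finrank_le_inf_ann (D c) c'
    have h3 := Submodule.finrank_mono hinf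
    rw [hD2 c hc, hD2 c' hc'] at h1
    rw [hD2 c hc] at h2
    omega
  obtain ⟨x, hx, hxW⟩ := exists_common_zero _ hsup
  have hxc : ∀ g ∈ D c, g ⬝ᵥ x = 0 := fun g hg => hxW g (Submodule.mem_sup_left hg)
  have hxc' : ∀ g ∈ D c', g ⬝ᵥ x = 0 := fun g hg => hxW g (Submodule.mem_sup_right hg)
  -- (d)
  have hx1 : ∀ g ∈ D x, g ⬝ᵥ c = 0 := by
    intro g hg
    by_contra hne
    obtain ⟨k, hk, hkx⟩ := hb x c hx hc ⟨g, hg, hne⟩
    exact hkx (hxc k hk)
  have hx2 : ∀ g ∈ D x, g ⬝ᵥ c' = 0 := by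
    intro g hg
    by_contra hne
    obtain ⟨k, hk, hkx⟩ := hb x c' hx hc' ⟨g, hg, hne⟩
    exact hkx (hxc' k hk)
  by_cases hlin : ∃ l : F, x = l • c
  · obtain ⟨l, hl⟩ := hlin
    have h1 := hxc' f' hf'
    rw [hl, dotProduct_smul, smul_eq_mul] at h1
    rcases mul_eq_zero.1 h1 with h2 | h2
    · apply hx
      rw [hl, h2, zero_smul]
    · exact hf'c h2
  · push Not at hlin
    obtain ⟨χ, hχ1, hχ2⟩ := exists_dot_sep hlin
    have hlt : ann c ⊓ ann x < ann c := by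
      refine lt_of_le_of_ne inf_le_left ?_
      intro h
      have h1 : χ ∈ ann c ⊓ ann x := by
        rw [h]
        exact hχ1
      have h2 : χ ⬝ᵥ x = 0 := (Submodule.mem_inf.1 h1).2
      rw [hχ2] at h2
      exact one_ne_zero h2
    have h1 := Submodule.finrank_lt_finrank_of_lt hlt
    have h2 := finrank_ann_lt hc
    have e1 : D c = ann c ⊓ ann x := by
      apply Submodule.eq_of_le_of_finrank_le
      · exact le_inf (hDann c hc) (fun g hg => hxc g hg)
      · rw [hD2 c hc]; omega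
    have e2 : D x = ann c ⊓ ann x := by
      apply Submodule.eq_of_le_of_finrank_le
      · exact le_inf (fun g hg => hx1 g hg) (hDann x hx)
      · rw [hD2 x hx]; omega
    rw [e1, ← e2] at hf
    have := hx2 f hf
    rw [hc'1] at this
    exact one_ne_zero this

end Cfsg.Agent.Lib.Helper12.MinIdx
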