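import Mathlib
import Cfsg.Agent.Lib.Helper12.PermCentralizer

set_option autoImplicit false

namespace Cfsg.Agent.Lib.Helper12

open MulAction

/-- A transitive subgroup of the centraliser of a transitive group is the whole centraliser. -/
theorem centralizer_eq_of_le_of_isPretransitive {α : Type*} (M N : Subgroup (Equiv.Perm α))
    [IsPretransitive M α] [IsPretransitive N α]
    (h : N ≤ Subgroup.centralizer (M : Set (Equiv.Perm α))) :
    Subgroup.centralizer (M : Set (Equiv.Perm α)) = N := by
  apply le_antisymm _ h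
  intro c hc
  rcases isEmpty_or_nonempty α with he | ⟨⟨a⟩⟩
  · have : c = 1 := by ext x; exact he.elim x
    rw [this]; exact N.one_mem
  · obtain ⟨n, hn⟩ := exists_smul_eq N a (c a)
    have h1 : (n : Equiv.Perm α)⁻¹ * c ∈ Subgroup.centralizer (M : Set (Equiv.Perm α)) :=
      Subgroup.mul_mem _ (Subgroup.inv_mem _ (h n.2)) hc
    have h2 : ((n : Equiv.Perm α)⁻¹ * c) a = a := by
      rw [Equiv.Perm.coe_mul, Function.comp_apply, Equiv.Perm.inv_eq_iff_eq]
      exact hn.symm
    have h3 := centralizer_semiregular M h1 h2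
    have h4 : c = n := by
      rw [inv_mul_eq_one] at h3; exact h3.symm
    rw [h4]; exact n.2

/-- transfer of transitivity from `M : Subgroup G` to its image in `Equiv.Perm α`. -/
theorem isPretransitive_map_subtype {α : Type*} (G : Subgroup (Equiv.Perm α)) (M : Subgroup G)
    (h : IsPretransitive M α) : IsPretransitive (M.map G.subtype) α := by
  refine ⟨fun a b => ?_⟩
  obtain ⟨m, hm⟩ := h.exists_smul_eq a b
  exact ⟨⟨(m : G), ⟨m.1, m.2, rfl⟩⟩, hm⟩

/-- Two normal subgroups with trivial intersection centralise each other (in `Equiv.Perm α`). -/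
theorem map_le_centralizer_map_of_inf_eq_bot {P : Type*} [Group P] (G : Subgroup P)
    (M N : Subgroup G) [M.Normal] [N.Normal] (h : M ⊓ N = ⊥) :
    N.map G.subtype ≤ Subgroup.centralizer ((M.map G.subtype : Subgroup P) : Set P) := by
  rintro _ ⟨n, hn, rfl⟩
  rw [Subgroup.mem_centralizer_iff]
  rintro _ ⟨m, hm, rfl⟩
  have hd : Disjoint M N := disjoint_iff.mpr h
  have := Subgroup.commute_of_normal_of_disjoint M N inferInstance inferInstance hd m n hm hn
  have h2 := congrArg G.subtype this.eq
  simpa using h2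

/-- Distinct minimal normal subgroups meet trivially. -/
theorem inf_eq_bot_of_minimal_normal {G : Type*} [Group G] (M N : Subgroup G) [M.Normal] [N.Normal]
    (hM : M ≠ ⊥)
    (hMmin : ∀ L : Subgroup G, L.Normal → L ≤ M → L = ⊥ ∨ L = M)
    (hNmin : ∀ L : Subgroup G, L.Normal → L ≤ N → L = ⊥ ∨ L = N) (hMN : M ≠ N) :
    M ⊓ N = ⊥ := by
  rcases hMmin (M ⊓ N) inferInstance inf_le_left with h | h
  · exact h
  · have hle : M ≤ N := inf_eq_left.mp h
    rcases hNmin M inferInstance hle with h' | h'
    · exact absurd h' hM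
    · exact absurd h' hMN

end Cfsg.Agent.Lib.Helper12
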