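import Mathlib

set_option autoImplicit false

namespace Cfsg.Agent.Lib.Helper12

open MulAction SubMulAction

/-- If `G` is `m`-transitive and the pointwise stabiliser of a set with `m` elements is `k`-transitive
on the complement, then `G` is `m + k`-transitive. -/
theorem isMultiplyPretransitive_add_of_fixingSubgroup {G α : Type*} [Group G] [MulAction G α]
    {m k : ℕ} (s : Set α) (hsf : s.Finite) (hs : s.ncard = m)
    (hm : IsMultiplyPretransitive G α m)
    (hk : IsMultiplyPretransitive (fixingSubgroup G s) (ofFixingSubgroup G s) k) :
    IsMultiplyPretransitive G α (m + k) := by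
  induction m generalizing G α s with
  | zero =>
    rw [Set.ncard_eq_zero hsf] at hs
    subst hs
    rw [zero_add]
    exact (IsPretransitive.of_embedding_congr
      (of_fixingSubgroupEmpty_mapScalars_surjective (M := G) (α := α))
      (ofFixingSubgroupEmpty_equivariantMap_bijective (M := G) (α := α))).mp hk
  | succ m ih =>
    have hne : s.Nonempty := by
      rw [← Set.ncard_pos hsf, hs]; exact Nat.succ_pos m
    obtain ⟨a, ha⟩ := hne
    have htr : IsPretransitive G α := by
      rw [← is_one_pretransitive_iff]
      apply isMultiplyPretransitive_of_le' (n := m + 1) (by omega)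
      rw [← hs]
      calc ((s.ncard : ℕ) : ENat) = s.encard := by
            rw [Set.ncard_def, ENat.natCast_toNat]
            exact Set.encard_ne_top_iff.mpr hsf
        _ ≤ ENat.card α := by
            rw [← Set.encard_univ]; exact Set.encard_le_encard (Set.subset_univ s)
    set t : Set (ofStabilizer G a) := Subtype.val ⁻¹' s with ht
    have hst : s = insert a (Subtype.val '' t) := by
      ext x
      by_cases hx : x = a <;> simp [hx, mem_ofStabilizer_iff, ha, ht]
    have ha' : a ∉ Subtype.val '' t := by
      intro h; rw [Set.mem_image] at h; obtain ⟨x, hx⟩ := h
      apply x.prop; rw [hx.right]; exact Set.mem_singleton a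
    have htf : t.Finite := hsf.preimage Subtype.val_injective.injOn
    have htm : t.ncard = m := by
      rw [← Set.ncard_image_of_injective t Subtype.val_injective]
      apply Nat.add_right_cancel
      rw [← Set.ncard_insert_of_notMem ha' (htf.image _), ← hst, hs]
    rw [show m + 1 + k = (m + k).succ by omega, ofStabilizer.isMultiplyPretransitive (a := a)]
    apply ih t htf htm
    · exact ofStabilizer.isMultiplyPretransitive.mp hm
    · have h1 : IsMultiplyPretransitive (fixingSubgroup G (insert a (Subtype.val '' t)))
          (ofFixingSubgroup G (insert a (Subtype.val '' t))) k :=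
        IsPretransitive.of_embedding (f := ofFixingSubgroup_of_eq G hst)
          (ofFixingSubgroup_of_eq_bijective (hst := hst)).surjective
      exact IsPretransitive.of_embedding (f := ofFixingSubgroup_insert_map a t)
          ofFixingSubgroup_insert_map_bijective.surjective

end Cfsg.Agent.Lib.Helper12
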