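import Mathlib
import Cfsg.Prelude.Def_Perm

set_option autoImplicit false

namespace Cfsg.Agent.Lib.Helper12.NF

open Cfsg

variable {F : Type*} [NearField F]

theorem add_mul' (a b c : F) : (a + b) * c = a * c + b * c := NearField.right_distrib a b c

theorem mul_zero' (a : F) : a * 0 = 0 := NearField.mul_zero a

theorem zero_mul' (c : F) : (0 : F) * c = 0 := by
  have h := add_mul' (0 : F) 0 c
  rw [add_zero] at h
  exact (add_eq_left.mp h.symm)

theorem neg_mul' (a c : F) : (-a) * c = -(a * c) := by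
  have h := add_mul' a (-a) c
  rw [add_neg_cancel, zero_mul'] at h
  exact (neg_eq_of_add_eq_zero_right h.symm).symm

theorem sub_mul' (a b c : F) : (a - b) * c = a * c - b * c := by
  rw [sub_eq_add_neg, add_mul', neg_mul', ← sub_eq_add_neg]

theorem zero_ne_one' : (0 : F) ≠ 1 := NearField.zero_ne_one

theorem exists_inv' {a : F} (ha : a ≠ 0) : ∃ b : F, b ≠ 0 ∧ a * b = 1 ∧ b * a = 1 := by
  obtain ⟨b, h1, h2⟩ := NearField.exists_inv a ha
  refine ⟨b, ?_, h1, h2⟩
  rintro rfl
  rw [mul_zero'] at h1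
  exact zero_ne_one' h1

theorem mul_ne_zero' {a b : F} (ha : a ≠ 0) (hb : b ≠ 0) : a * b ≠ 0 := by
  intro h
  obtain ⟨b', _, h1, _⟩ := exists_inv' hb
  apply ha
  calc a = a * (b * b') := by rw [h1, mul_one]
    _ = (a * b) * b' := by rw [mul_assoc]
    _ = 0 := by rw [h, zero_mul']

theorem mul_right_cancel' {a x y : F} (ha : a ≠ 0) (h : x * a = y * a) : x = y := by
  obtain ⟨a', _, h1, _⟩ := exists_inv' ha
  calc x = x * (a * a') := by rw [h1, mul_one]
    _ = (x * a) * a' := by rw [mul_assoc]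
    _ = (y * a) * a' := by rw [h]
    _ = y * (a * a') := by rw [mul_assoc]
    _ = y := by rw [h1, mul_one]

theorem mul_left_cancel' {a x y : F} (ha : a ≠ 0) (h : a * x = a * y) : x = y := by
  obtain ⟨a', _, _, h2⟩ := exists_inv' ha
  calc x = (a' * a) * x := by rw [h2, one_mul]
    _ = a' * (a * x) := by rw [mul_assoc]
    _ = a' * (a * y) := by rw [h]
    _ = (a' * a) * y := by rw [mul_assoc]
    _ = y := by rw [h2, one_mul]

theorem nsmul_mul' (n : ℕ) (a c : F) : (n • a) * c = n • (a * c) := by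
  induction n with
  | zero => rw [zero_nsmul, zero_nsmul, zero_mul']
  | succ n ih => rw [succ_nsmul, succ_nsmul, add_mul', ih]

/-- The affine map `x ↦ x * m + n`. -/
noncomputable def affine (m n : F) (hm : m ≠ 0) : Equiv.Perm F where
  toFun x := x * m + n
  invFun y := (y - n) * (exists_inv' hm).choose
  left_inv x := by
    have h := (exists_inv' hm).choose_spec
    simp only [add_sub_cancel_right]
    rw [mul_assoc, h.2.1, mul_one]
  right_inv y := by
    have h := (exists_inv' hm).choose_spec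
    simp only
    rw [mul_assoc, h.2.2, mul_one, sub_add_cancel]

@[simp] theorem affine_apply (m n : F) (hm : m ≠ 0) (x : F) : affine m n hm x = x * m + n := rfl

/-- The group of affine maps of a near-field. -/
def affineSubgroup (F : Type*) [NearField F] : Subgroup (Equiv.Perm F) where
  carrier := {σ | ∃ a b : F, a ≠ 0 ∧ ∀ x : F, σ x = x * a + b}
  one_mem' := ⟨1, 0, zero_ne_one'.symm, fun x => by simp⟩
  mul_mem' := by
    rintro σ τ ⟨a, b, ha, hσ⟩ ⟨c, d, hc, hτ⟩
    refine ⟨c * a, d * a + b, mul_ne_zero' hc ha, fun x => ?_⟩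
    rw [Equiv.Perm.coe_mul, Function.comp_apply, hτ, hσ, add_mul', mul_assoc, add_assoc]
  inv_mem' := by
    rintro σ ⟨a, b, ha, hσ⟩
    obtain ⟨a', ha', h1, h2⟩ := exists_inv' ha
    refine ⟨a', (-b) * a', ha', fun x => ?_⟩
    apply σ.injective
    rw [Equiv.Perm.inv_def, Equiv.apply_symm_apply, hσ, ← add_mul', mul_assoc, h2, mul_one, neg_add_cancel_right]

theorem mem_affineSubgroup (σ : Equiv.Perm F) :
    σ ∈ affineSubgroup F ↔ ∃ a b : F, a ≠ 0 ∧ ∀ x : F, σ x = x * a + b := Iff.rfl

end Cfsg.Agent.Lib.Helper12.NF
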