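import Mathlib
import Cfsg.Agent.Lib.Helper12.RegNormal
import Cfsg.Agent.Lib.Helper12.Sharp2

set_option autoImplicit false

namespace Cfsg.Agent.Lib.Helper12.NormalTrans

open MulAction SubMulAction
open scoped Pointwise

variable {G X : Type*} [Group G] [MulAction G X]

/-- the stabiliser of a point acts faithfully on the other points -/
theorem faithful_ofStabilizer [FaithfulSMul G X] (a : X) :
    FaithfulSMul (stabilizer G a) (ofStabilizer G a) := by
  refine ⟨fun {g g'} h => ?_⟩
  apply Subtype.ext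
  apply FaithfulSMul.eq_of_smul_eq_smul (α := X)
  intro x
  by_cases hx : x = a
  · rw [hx]
    exact g.2.trans g'.2.symm
  · have := h ⟨x, hx⟩
    exact congrArg Subtype.val this

/-- A nontrivial normal subgroup of a faithful primitive group is transitive. -/
theorem isPretransitive_of_normal [FaithfulSMul G X] [IsPreprimitive G X] (N : Subgroup G)
    [N.Normal] (hN : N ≠ ⊥) : IsPretransitive N X := by
  apply IsQuasiPreprimitive.isPretransitive_of_normal (G := G)
  intro h
  apply hN
  rw [Subgroup.eq_bot_iff_forall]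
  intro n hn
  apply FaithfulSMul.eq_of_smul_eq_smul (α := X)
  intro x
  rw [one_smul]
  have : x ∈ fixedPoints N X := by rw [h]; trivial
  exact this ⟨n, hn⟩

/-- transfer of multiple transitivity from `N ∩ G_a` on `X \ {a}` to `N` on `X`. -/
theorem isMultiplyPretransitive_succ_of_subgroupOf (N : Subgroup G) [IsPretransitive N X] (a : X)
    (j : ℕ)
    (h : IsMultiplyPretransitive (N.subgroupOf (stabilizer G a)) (ofStabilizer G a) j) :
    IsMultiplyPretransitive N X (j + 1) := by
  rw [ofStabilizer.isMultiplyPretransitive (a := a)]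
  let σ : N.subgroupOf (stabilizer G a) → stabilizer N a := fun g => ⟨⟨g.1.1, g.2⟩, g.1.2⟩
  let f : ofStabilizer G a →ₑ[σ] ofStabilizer N a :=
    { toFun := fun x => ⟨x.1, x.2⟩
      map_smul' := fun g x => rfl }
  have hf : Function.Surjective f := fun y => ⟨⟨y.1, y.2⟩, rfl⟩
  exact IsPretransitive.of_embedding (f := f) hf

/-- semiregularity at one point spreads to all points -/
theorem semiregular_of_point [IsPretransitive G X] (N : Subgroup G) [hN : N.Normal] {a : X}
    (h : ∀ n ∈ N, n • a = a → n = 1) : ∀ x : X, stabilizer N x = ⊥ := by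
  intro x
  obtain ⟨g, rfl⟩ := exists_smul_eq G a x
  rw [Subgroup.eq_bot_iff_forall]
  intro n hn
  have hn' : (n : G) • g • a = g • a := hn
  have h1 : (g⁻¹ * n * g⁻¹⁻¹) • a = a := by
    rw [inv_inv, mul_smul, mul_smul, hn', inv_smul_smul]
  have h2 := h _ (hN.conj_mem n.1 n.2 g⁻¹) h1
  apply Subtype.ext
  have h3 : (n : G) = g * (g⁻¹ * n * g⁻¹⁻¹) * g⁻¹ := by group
  rw [h3, h2]; simp

/-- A normal subgroup `H` which is sharply 2-transitive yields a regular normal subgroup of `G`. -/
theorem exists_regular_normal_of_sharp2 [Finite X] (H : Subgroup G) [hH : H.Normal]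
    (h2t : IsMultiplyPretransitive H X 2) (hsharp : ∀ x : Fin 2 ↪ X, stabilizer H x = ⊥)
    (h2 : 2 ≤ Nat.card X) :
    ∃ K : Subgroup G, K.Normal ∧ IsPretransitive K X ∧ ∀ x : X, stabilizer K x = ⊥ := by
  obtain ⟨p, j, K, hp, hj, hcard, hKn, hKc, hKe, hKcard, hKmem, hKt⟩ :=
    Sharp2.exists_kernel h2t hsharp h2
  refine ⟨K.map H.subtype, ?_, ?_, ?_⟩
  · refine ⟨?_⟩
    rintro _ ⟨k, hk, rfl⟩ g
    have hmem : g * (k : G) * g⁻¹ ∈ H := hH.conj_mem k.1 k.2 g
    refine ⟨⟨_, hmem⟩, ?_, rfl⟩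
    rw [SetLike.mem_coe, hKmem] at hk ⊢
    rcases hk with rfl | hk
    · left
      apply Subtype.ext
      simp
    · right
      intro x hx
      have hx' : (g * (k : G) * g⁻¹) • x = x := hx
      apply hk (g⁻¹ • x)
      change (k : G) • g⁻¹ • x = g⁻¹ • x
      rw [mul_smul, mul_smul, ← eq_inv_smul_iff] at hx'
      exact hx'
  · refine ⟨fun x y => ?_⟩
    obtain ⟨n, hn, hnxy⟩ := hKt x y
    exact ⟨⟨n.1, ⟨n, hn, rfl⟩⟩, hnxy⟩
  · intro x
    rw [Subgroup.eq_bot_iff_forall]
    rintro ⟨_, ⟨k, hk, rfl⟩⟩ hfix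
    rcases (hKmem k).mp hk with rfl | hk'
    · rfl
    · exact absurd hfix (hk' x)

end Cfsg.Agent.Lib.Helper12.NormalTrans
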