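import Mathlib
import Cfsg.Agent.Lib.Helper12.NormalTrans

set_option autoImplicit false

namespace Cfsg.Agent.Lib.Helper12.NormalTrans

open MulAction SubMulAction
open scoped Pointwise

theorem sharp2_of_regular_stabilizer {G X : Type*} [Group G] [MulAction G X]
    [IsPretransitive G X] (H : Subgroup G) [hH : H.Normal] [IsPretransitive H X]
    (a : X) (htr : IsPretransitive (H.subgroupOf (stabilizer G a)) (ofStabilizer G a))
    (hsr : ∀ h ∈ H, h • a = a → ∀ y, y ≠ a → h • y = y → h = 1) :
    IsMultiplyPretransitive H X 2 ∧ ∀ x : Fin 2 ↪ X, stabilizer H x = ⊥ := by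
  refine ⟨isMultiplyPretransitive_succ_of_subgroupOf H a 1 (is_one_pretransitive_iff.mpr htr), ?_⟩
  intro x
  rw [Subgroup.eq_bot_iff_forall]
  intro h hh
  rw [mem_stabilizer_iff] at hh
  have h0 : (h : G) • x 0 = x 0 := congrArg (fun e : Fin 2 ↪ X => e 0) hh
  have h1 : (h : G) • x 1 = x 1 := congrArg (fun e : Fin 2 ↪ X => e 1) hh
  obtain ⟨g, hg⟩ := exists_smul_eq G a (x 0)
  have e1 : (g⁻¹ * h * g⁻¹⁻¹) • a = a := by
    rw [inv_inv, mul_smul, mul_smul, hg, h0, ← hg, inv_smul_smul]
  have e2 : (g⁻¹ * h * g⁻¹⁻¹) • (g⁻¹ • x 1) = g⁻¹ • x 1 := by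
    rw [inv_inv, mul_smul, mul_smul, smul_inv_smul, h1]
  have e3 : g⁻¹ • x 1 ≠ a := by
    intro e
    rw [inv_smul_eq_iff, hg] at e
    have := x.injective e
    exact absurd this (by decide)
  have h2 := hsr _ (hH.conj_mem h.1 h.2 g⁻¹) e1 _ e3 e2
  apply Subtype.ext
  have h3 : (h : G) = g * (g⁻¹ * h * g⁻¹⁻¹) * g⁻¹ := by group
  rw [h3, h2]; simp

/-- **Jordan**: normal subgroups of multiply transitive groups (general faithful action). -/
theorem jordan_normal (j : ℕ) : ∀ {G X : Type*} [Group G] [MulAction G X] [FaithfulSMul G X] [Finite X],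
    j + 2 < Nat.card X → IsMultiplyPretransitive G X (j + 2) →
    ∀ (N : Subgroup G) [N.Normal], N ≠ ⊥ →
    IsMultiplyPretransitive N X (j + 1) ∨ (j = 1 ∧ ∀ n ∈ N, n ^ 2 = 1) := by
  induction j with
  | zero =>
    intro G X _ _ _ _ hdeg hG N _ hN
    left
    have : IsPreprimitive G X := isPreprimitive_of_is_two_pretransitive hG
    rw [zero_add, is_one_pretransitive_iff]
    exact isPretransitive_of_normal N hN
  | succ j ih =>
    intro G X _ _ _ _ hdeg hG N hNn hN
    have hcardE : ∀ m : ℕ, m ≤ Nat.card X → (m : ENat) ≤ ENat.card X := by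
      intro m hm
      rw [ENat.card_eq_coe_natCard]
      exact_mod_cast hm
    have h2t : IsMultiplyPretransitive G X 2 :=
      isMultiplyPretransitive_of_le (n := j + 1 + 2) (by omega) (by omega)
    have hprim : IsPreprimitive G X := isPreprimitive_of_is_two_pretransitive h2t
    have htr : IsPretransitive G X := hprim.toIsPretransitive
    have hNt : IsPretransitive N X := isPretransitive_of_normal N hN
    have hne : Nonempty X := by
      rw [← Finite.card_pos_iff]; omega
    obtain ⟨a⟩ := hne
    by_cases hreg : ∀ n ∈ N, n • a = a → n = 1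
    · -- `N` is regular
      have hreg' := semiregular_of_point N hreg
      rcases Nat.eq_zero_or_pos j with rfl | hj
      · right
        refine ⟨rfl, ?_⟩
        have h2p : IsMultiplyPreprimitive G X 2 :=
          isMultiplyPreprimitive_of_isMultiplyPretransitive_succ G X (hcardE 3 (by omega))
        have : Nonempty X := ⟨a⟩
        exact RegNormal.sq_eq_one_of_two_preprimitive h2p N hreg' (by omega)
      · exfalso
        have h4t : IsMultiplyPretransitive G X 4 :=
          isMultiplyPretransitive_of_le (n := j + 1 + 2) (by omega) (by omega)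
        have h3p : IsMultiplyPreprimitive G X 3 :=
          isMultiplyPreprimitive_of_isMultiplyPretransitive_succ G X (hcardE 4 (by omega))
        have := RegNormal.card_of_three_preprimitive (by omega) h3p N hNt hreg'
        omega
    · push Not at hreg
      obtain ⟨n, hnN, hna, hn1⟩ := hreg
      have hfa := faithful_ofStabilizer (G := G) a
      have hNa : N.subgroupOf (stabilizer G a) ≠ ⊥ := by
        intro h
        apply hn1
        have : (⟨n, hna⟩ : stabilizer G a) ∈ N.subgroupOf (stabilizer G a) := by
          rw [Subgroup.mem_subgroupOf]; exact hnN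
        rw [h, Subgroup.mem_bot] at this
        exact congrArg Subtype.val this
      have hGa : IsMultiplyPretransitive (stabilizer G a) (ofStabilizer G a) (j + 2) :=
        ofStabilizer.isMultiplyPretransitive.mp hG
      have hcard : j + 2 < Nat.card (ofStabilizer G a) := by
        rw [nat_card_ofStabilizer_eq]; omega
      rcases ih hcard hGa (N.subgroupOf (stabilizer G a)) hNa with h | ⟨rfl, hsq⟩
      · left
        exact isMultiplyPretransitive_succ_of_subgroupOf N a (j + 1) h
      · exfalso
        -- `N_a` is an elementary abelian 2-group, transitive hence regular on the other points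
        have h2ta : IsMultiplyPretransitive (stabilizer G a) (ofStabilizer G a) 2 :=
          isMultiplyPretransitive_of_le (n := 1 + 2) (by omega) (by omega)
        have hprima : IsPreprimitive (stabilizer G a) (ofStabilizer G a) :=
          isPreprimitive_of_is_two_pretransitive h2ta
        have hNat : IsPretransitive (N.subgroupOf (stabilizer G a)) (ofStabilizer G a) :=
          isPretransitive_of_normal _ hNa
        have hcomm := RegNormal.comm_of_sq_eq_one _ hsq
        have hsr : ∀ h ∈ N, h • a = a → ∀ y, y ≠ a → h • y = y → h = 1 := by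
          intro h hhN hha y hy hhy
          have hh' : (⟨h, hha⟩ : stabilizer G a) ∈ N.subgroupOf (stabilizer G a) := by
            rw [Subgroup.mem_subgroupOf]; exact hhN
          have : (⟨h, hha⟩ : stabilizer G a) = 1 := by
            apply FaithfulSMul.eq_of_smul_eq_smul (α := ofStabilizer G a)
            intro z
            rw [one_smul]
            obtain ⟨m, hm⟩ := hNat.exists_smul_eq ⟨y, hy⟩ z
            have hc := hcomm.is_comm.comm ⟨_, hh'⟩ m
            have hc' : (⟨h, hha⟩ : stabilizer G a) * m.1 = m.1 * ⟨h, hha⟩ := congrArg Subtype.val hc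
            have hm' : m.1 • (⟨y, hy⟩ : ofStabilizer G a) = z := hm
            rw [← hm', ← mul_smul, hc', mul_smul]
            congr 1
            exact Subtype.ext hhy
          exact congrArg Subtype.val this
        obtain ⟨hs2, hs2'⟩ := sharp2_of_regular_stabilizer N a hNat hsr
        obtain ⟨K, hKn, hKt, hKr⟩ := exists_regular_normal_of_sharp2 N hs2 hs2' (by omega)
        have h4t : IsMultiplyPretransitive G X 4 := hG
        have h3p : IsMultiplyPreprimitive G X 3 :=
          isMultiplyPreprimitive_of_isMultiplyPretransitive_succ G X (hcardE 4 (by omega))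
        have := RegNormal.card_of_three_preprimitive (by omega) h3p K hKt hKr
        omega

/-- a faithful 3-transitive action on at most 4 points is the full symmetric group -/
theorem card_eq_factorial_of_three_transitive {G X : Type*} [Group G] [MulAction G X]
    [FaithfulSMul G X] [Finite X] (h3 : IsMultiplyPretransitive G X 3) (hX : 3 ≤ Nat.card X)
    (hX' : Nat.card X ≤ 4) : Nat.card G = (Nat.card X).factorial := by
  classical
  obtain ⟨s, _, hs⟩ := Set.exists_subset_card_eq (s := (Set.univ : Set X)) (n := 3)
      (by rw [Set.ncard_univ]; exact hX)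
  have h := h3.index_of_fixingSubgroup_mul hs
  have hbot : fixingSubgroup G s = ⊥ := by
    rw [Subgroup.eq_bot_iff_forall]
    intro g hg
    rw [mem_fixingSubgroup_iff] at hg
    apply FaithfulSMul.eq_of_smul_eq_smul (α := X)
    intro y
    rw [one_smul]
    by_cases hy : y ∈ s
    · exact hg y hy
    · have hgy : g • y ∉ s := by
        intro h'
        apply hy
        have := hg _ h'
        rw [smul_left_cancel_iff] at this
        rw [← this]; exact h'
      have hc : sᶜ.ncard ≤ 1 := by
        have := Set.ncard_add_ncard_compl s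
        omega
      rw [Set.ncard_le_one_iff] at hc
      exact hc hgy hy
  rw [hbot, Subgroup.index_bot] at h
  have h1 : (Nat.card X - 3).factorial = 1 := by
    have : Nat.card X - 3 = 0 ∨ Nat.card X - 3 = 1 := by omega
    rcases this with h | h <;> rw [h] <;> rfl
  rw [h1, mul_one] at h
  exact h

/-- Normal non-regular subgroups of `k`-primitive groups other than the symmetric group are
`k`-transitive. -/
theorem normal_multiply_transitive (j : ℕ) :
    ∀ {G X : Type*} [Group G] [MulAction G X] [FaithfulSMul G X] [Finite X],
    j + 1 ≤ Nat.card X → IsMultiplyPreprimitive G X (j + 1) →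
    Nat.card G ≠ (Nat.card X).factorial →
    ∀ (H : Subgroup G) [H.Normal], (∃ h ∈ H, h ≠ 1 ∧ ∃ a : X, h • a = a) →
    IsMultiplyPretransitive H X (j + 1) := by
  induction j with
  | zero =>
    intro G X _ _ _ _ hdeg hG htop H _ hnr
    have : IsPreprimitive G X := (is_one_preprimitive_iff G X).mp hG
    rw [zero_add, is_one_pretransitive_iff]
    apply isPretransitive_of_normal H
    obtain ⟨h, hh, h1, _⟩ := hnr
    intro hbot
    rw [hbot, Subgroup.mem_bot] at hh
    exact h1 hh
  | succ j ih =>
    intro G X _ _ _ _ hdeg hG htop H hHn hnr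
    have hcardE : ∀ m : ℕ, m ≤ Nat.card X → (m : ENat) ≤ ENat.card X := by
      intro m hm
      rw [ENat.card_eq_coe_natCard]
      exact_mod_cast hm
    have hprim : IsPreprimitive G X :=
      (is_one_preprimitive_iff G X).mp
        (isMultiplyPreprimitive_of_le G X hG (by omega) (hcardE _ hdeg))
    have htr : IsPretransitive G X := hprim.toIsPretransitive
    obtain ⟨h, hhH, hh1, a, hha⟩ := hnr
    have hHbot : H ≠ ⊥ := by
      intro hbot
      rw [hbot, Subgroup.mem_bot] at hhH
      exact hh1 hhH
    have hHt : IsPretransitive H X := isPretransitive_of_normal H hHbot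
    have hfa := faithful_ofStabilizer (G := G) a
    have hGa : IsMultiplyPreprimitive (stabilizer G a) (ofStabilizer G a) (j + 1) :=
      isMultiplyPreprimitive_ofStabilizer G X
    have hcard : j + 1 ≤ Nat.card (ofStabilizer G a) := by
      rw [nat_card_ofStabilizer_eq]; omega
    have htopa : Nat.card (stabilizer G a) ≠ (Nat.card (ofStabilizer G a)).factorial := by
      intro he
      apply htop
      rw [← (stabilizer G a).card_mul_index, index_stabilizer_of_transitive, he,
        nat_card_ofStabilizer_eq, mul_comm]
      exact Nat.mul_factorial_pred (by omega)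
    have hHa : H.subgroupOf (stabilizer G a) ≠ ⊥ := by
      intro hb
      apply hh1
      have : (⟨h, hha⟩ : stabilizer G a) ∈ H.subgroupOf (stabilizer G a) := by
        rw [Subgroup.mem_subgroupOf]; exact hhH
      rw [hb, Subgroup.mem_bot] at this
      exact congrArg Subtype.val this
    by_cases hnr' : ∃ h' ∈ H.subgroupOf (stabilizer G a), h' ≠ 1 ∧ ∃ y : ofStabilizer G a, h' • y = y
    · exact isMultiplyPretransitive_succ_of_subgroupOf H a (j + 1)
        (ih hcard hGa htopa (H.subgroupOf (stabilizer G a)) hnr')
    · push Not at hnr'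
      have hprima : IsPreprimitive (stabilizer G a) (ofStabilizer G a) :=
        (is_one_preprimitive_iff _ _).mp
          (isMultiplyPreprimitive_of_le _ _ hGa (by omega)
            (by rw [ENat.card_eq_coe_natCard]; exact_mod_cast hcard))
      have hHat : IsPretransitive (H.subgroupOf (stabilizer G a)) (ofStabilizer G a) :=
        isPretransitive_of_normal _ hHa
      rcases Nat.eq_zero_or_pos j with rfl | hj
      · exact isMultiplyPretransitive_succ_of_subgroupOf H a 1 (is_one_pretransitive_iff.mpr hHat)
      · exfalso
        have hsr : ∀ h ∈ H, h • a = a → ∀ y, y ≠ a → h • y = y → h = 1 := by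
          intro h hhN hha y hy hhy
          by_contra hne
          have hh' : (⟨h, hha⟩ : stabilizer G a) ∈ H.subgroupOf (stabilizer G a) := by
            rw [Subgroup.mem_subgroupOf]; exact hhN
          exact hnr' _ hh' (fun e => hne (congrArg Subtype.val e)) ⟨y, hy⟩ (Subtype.ext hhy)
        obtain ⟨hs2, hs2'⟩ := sharp2_of_regular_stabilizer H a hHat hsr
        obtain ⟨K, hKn, hKt, hKr⟩ := exists_regular_normal_of_sharp2 H hs2 hs2' (by omega)
        have h3p : IsMultiplyPreprimitive G X 3 :=
          isMultiplyPreprimitive_of_le G X hG (by omega) (hcardE _ hdeg)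
        have hc := RegNormal.card_of_three_preprimitive (by omega) h3p K hKt hKr
        exact htop (card_eq_factorial_of_three_transitive h3p.isMultiplyPretransitive (by omega)
          (by omega))

end Cfsg.Agent.Lib.Helper12.NormalTrans
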