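import Mathlib
import Cfsg.Agent.Lib.Helper12.PrimeDegree

set_option autoImplicit false

/-! Counting the elements of order `p` in a transitive group of prime degree `p`. -/

namespace Cfsg.Agent.Lib.Helper12.PrimeDegree

open MulAction

variable {α : Type*} [Fintype α] [DecidableEq α] {p : ℕ} [hp : Fact p.Prime]

/-- A nontrivial element of a subgroup of order `p` has no fixed point. -/
theorem no_fixed_of_mem (hα : Fintype.card α = p) (G : Subgroup (Equiv.Perm α))
    (Q : Subgroup G) (hQ : Nat.card Q = p) {x : G} (hx : x ∈ Q) (hx1 : x ≠ 1) (a : α) :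
    x • a ≠ a := by
  intro ha
  have htr := isPretransitive_of_card hα G Q hQ
  have h1 := (stabilizer Q a).card_mul_index
  rw [index_stabilizer_of_transitive, Nat.card_eq_fintype_card (α := α), hα, hQ] at h1
  have h2 : Nat.card (stabilizer Q a) = 1 := by
    have := hp.out.pos
    nlinarith
  rw [Subgroup.card_eq_one] at h2
  have h3 : (⟨x, hx⟩ : Q) ∈ stabilizer Q a := ha
  rw [h2, Subgroup.mem_bot] at h3
  exact hx1 (congrArg Subtype.val h3)

theorem eq_zpowers_of_mem (G : Subgroup (Equiv.Perm α))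
    (Q : Subgroup G) (hQ : Nat.card Q = p) {x : G} (hx : x ∈ Q) (hx1 : x ≠ 1) :
    Subgroup.zpowers x = Q := by
  have hle : Subgroup.zpowers x ≤ Q := by rwa [Subgroup.zpowers_le]
  apply Subgroup.eq_of_le_of_card_ge hle
  rw [hQ, Nat.card_zpowers]
  have h1 : orderOf x ∣ p := by
    have : orderOf (⟨x, hx⟩ : Q) ∣ Nat.card Q := orderOf_dvd_natCard _
    rw [hQ] at this
    rwa [← Subgroup.orderOf_mk x hx]
  rcases (Nat.dvd_prime hp.out).mp h1 with h | h
  · exact absurd (orderOf_eq_one_iff.mp h) hx1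
  · exact h.ge

/-- Lower bound for the number of fixed-point-free elements. -/
theorem derangement_bound (hα : Fintype.card α = p) (G : Subgroup (Equiv.Perm α))
    [IsPretransitive G α] (P : Sylow p G) :
    (p - 1) * Nat.card G ≤ Nat.card (Subgroup.normalizer ((P : Subgroup G) : Set G)) *
      Nat.card {g : G // ∀ a : α, g • a ≠ a} := by
  classical
  have hQc : ∀ Q : Sylow p G, Nat.card (Q : Subgroup G) = p := fun Q => card_sylow hα G Q
  let φ : (Σ Q : Sylow p G, {x : G // x ∈ (Q : Subgroup G) ∧ x ≠ 1}) →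
      {g : G // ∀ a : α, g • a ≠ a} :=
    fun z => ⟨z.2.1, fun a => no_fixed_of_mem hα G z.1 (hQc z.1) z.2.2.1 z.2.2.2 a⟩
  have hφ : Function.Injective φ := by
    rintro ⟨Q, x, hx, hx1⟩ ⟨Q', x', hx', hx1'⟩ h
    have hxx : x = x' := congrArg Subtype.val h
    subst hxx
    have hQQ : Q = Q' := by
      apply Sylow.ext
      rw [← eq_zpowers_of_mem G Q (hQc Q) hx hx1, ← eq_zpowers_of_mem G Q' (hQc Q') hx' hx1]
    subst hQQ
    rfl
  have hle := Nat.card_le_card_of_injective φ hφ
  have hfib : ∀ Q : Sylow p G, Nat.card {x : G // x ∈ (Q : Subgroup G) ∧ x ≠ 1} = p - 1 := by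
    intro Q
    have e : {x : G // x ∈ (Q : Subgroup G) ∧ x ≠ 1} ≃ {y : (Q : Subgroup G) // y ≠ 1} :=
      { toFun := fun x => ⟨⟨x.1, x.2.1⟩, fun h => x.2.2 (congrArg Subtype.val h)⟩
        invFun := fun y => ⟨y.1.1, y.1.2, fun h => y.2 (Subtype.ext h)⟩
        left_inv := fun x => rfl
        right_inv := fun y => rfl }
    rw [Nat.card_congr e]
    have := Fintype.ofFinite (Q : Subgroup G)
    rw [Nat.card_eq_fintype_card, Fintype.card_subtype_compl, Fintype.card_subtype_eq,
      ← Nat.card_eq_fintype_card, hQc Q]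
  rw [Nat.card_sigma] at hle
  simp only [hfib] at hle
  rw [Finset.sum_const, Finset.card_univ, smul_eq_mul, ← Nat.card_eq_fintype_card,
    Sylow.card_eq_index_normalizer P] at hle
  have hmul := (Subgroup.normalizer ((P : Subgroup G) : Set G)).card_mul_index
  calc (p - 1) * Nat.card G
      = Nat.card (Subgroup.normalizer ((P : Subgroup G) : Set G)) *
        ((Subgroup.normalizer ((P : Subgroup G) : Set G)).index * (p - 1)) := by
        rw [← hmul]; ring
    _ ≤ _ := Nat.mul_le_mul_left _ hle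

end Cfsg.Agent.Lib.Helper12.PrimeDegree
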