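import Mathlib

set_option autoImplicit false

namespace Cfsg.Agent.Lib.Helper12.Witt

/-- The group-theoretic core of the one-point extension lemma: `L ∪ L h L` is a group. -/
theorem ope {Γ : Type*} [Group Γ] (L M : Subgroup Γ) (g h : Γ) (hML : M ≤ L) (hg : g ∈ L)
    (hdec : ∀ f ∈ L, f ∈ M ∨ ∃ a ∈ M, ∃ b ∈ M, f = a * g * b)
    (hh2 : h ^ 2 ∈ M) (hgh : (g * h) ^ 3 ∈ L) (hnorm : ∀ f ∈ M, h * f * h⁻¹ ∈ M) :
    ∀ f ∈ Subgroup.closure ((L : Set Γ) ∪ {h}), f ∈ L ∨ ∃ a ∈ L, ∃ b ∈ L, f = a * h * b := by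
  set P : Γ → Prop := fun f => f ∈ L ∨ ∃ a ∈ L, ∃ b ∈ L, f = a * h * b with hP
  have hPL : ∀ f, P f → ∀ l ∈ L, P (f * l) := by
    rintro f (hf | ⟨a, ha, b, hb, rfl⟩) l hl
    · exact Or.inl (L.mul_mem hf hl)
    · exact Or.inr ⟨a, ha, b * l, L.mul_mem hb hl, by group⟩
  have hLP : ∀ f, P f → ∀ l ∈ L, P (l * f) := by
    rintro f (hf | ⟨a, ha, b, hb, rfl⟩) l hl
    · exact Or.inl (L.mul_mem hl hf)
    · exact Or.inr ⟨l * a, L.mul_mem hl ha, b, hb, by group⟩
  have hnorm' : ∀ f ∈ M, h⁻¹ * f * h ∈ M := by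
    intro f hf
    have : h⁻¹ * f * h = (h ^ 2)⁻¹ * (h * f * h⁻¹) * h ^ 2 := by group
    rw [this]
    exact M.mul_mem (M.mul_mem (M.inv_mem hh2) (hnorm f hf)) hh2
  have hhgh : P (h * g * h) := by
    have : h * g * h = (g⁻¹ * (g * h) ^ 3 * (h ^ 2)⁻¹) * h * g⁻¹ := by
      simp only [pow_succ, pow_zero, one_mul, mul_inv_rev, mul_assoc, inv_mul_cancel_left,
        mul_inv_cancel_left, mul_inv_cancel, mul_one, inv_mul_cancel]
    rw [this]
    exact Or.inr ⟨_, L.mul_mem (L.mul_mem (L.inv_mem hg) hgh) (L.inv_mem (hML hh2)), _,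
      L.inv_mem hg, rfl⟩
  have hhLh : ∀ f ∈ L, P (h * f * h) := by
    intro f hf
    rcases hdec f hf with hfM | ⟨a, ha, b, hb, rfl⟩
    · left
      have : h * f * h = (h * f * h⁻¹) * h ^ 2 := by group
      rw [this]
      exact L.mul_mem (hML (hnorm f hfM)) (hML hh2)
    · have : h * (a * g * b) * h = (h * a * h⁻¹) * (h * g * h) * (h⁻¹ * b * h) := by group
      rw [this]
      exact hPL _ (hLP _ hhgh _ (hML (hnorm a ha))) _ (hML (hnorm' b hb))
  have hPh : ∀ f, P f → P (f * h) := by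
    rintro f (hf | ⟨a, ha, b, hb, rfl⟩)
    · exact Or.inr ⟨f, hf, 1, L.one_mem, by group⟩
    · have : a * h * b * h = a * (h * b * h) := by group
      rw [this]
      exact hLP _ (hhLh b hb) a ha
  intro f hf
  induction hf using Subgroup.closure_induction_right with
  | one => exact Or.inl L.one_mem
  | mul_right x _ y hy ih =>
    rcases hy with hy | hy
    · exact hPL x ih y hy
    · rw [Set.mem_singleton_iff] at hy
      subst hy
      exact hPh x ih
  | mul_inv_cancel x _ y hy ih =>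
    rcases hy with hy | hy
    · exact hPL x ih _ (L.inv_mem hy)
    · rw [Set.mem_singleton_iff] at hy
      subst hy
      have : x * y⁻¹ = x * y * (y ^ 2)⁻¹ := by group
      rw [this]
      exact hPL _ (hPh x ih) _ (L.inv_mem (hML hh2))

/-- `K` is `j`-fold transitive on the complement of `F`. -/
def MT {α : Type*} (K : Subgroup (Equiv.Perm α)) (F : Set α) (j : ℕ) : Prop :=
  ∀ x y : Fin j → α, Function.Injective x → Function.Injective y → (∀ i, x i ∉ F) →
    (∀ i, y i ∉ F) → ∃ g ∈ K, ∀ i, g (x i) = y i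

theorem MT.step {α : Type*} {K K' : Subgroup (Equiv.Perm α)} {F : Set α} {a : α} {j : ℕ}
    (h : MT K (insert a F) j) (hle : K ≤ K') (hKa : ∀ g ∈ K, g a = a)
    (hF : ∀ g ∈ K', ∀ z ∈ F, g z = z) (htr : ∀ b ∉ F, ∃ g ∈ K', g b = a) : MT K' F (j + 1) := by
  intro x y hx hy hxF hyF
  obtain ⟨g₁, hg₁, hg₁a⟩ := htr _ (hxF (Fin.last j))
  obtain ⟨g₂, hg₂, hg₂a⟩ := htr _ (hyF (Fin.last j))
  have hpres : ∀ g ∈ K', ∀ z, z ∉ F → g z ∉ F := by
    intro g hg z hz hgz
    apply hz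
    have := hF g hg _ hgz
    rw [← g.injective this]
    exact hgz
  obtain ⟨f, hf, hfx⟩ := h (fun i => g₁ (x i.castSucc)) (fun i => g₂ (y i.castSucc))
    (fun i i' hii => Fin.castSucc_injective j (hx (g₁.injective hii)))
    (fun i i' hii => Fin.castSucc_injective j (hy (g₂.injective hii)))
    (by
      intro i hi
      rcases hi with hi | hi
      · rw [← hg₁a] at hi
        exact (Fin.castSucc_lt_last i).ne (hx (g₁.injective hi))
      · exact hpres g₁ hg₁ _ (hxF _) hi)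
    (by
      intro i hi
      rcases hi with hi | hi
      · rw [← hg₂a] at hi
        exact (Fin.castSucc_lt_last i).ne (hy (g₂.injective hi))
      · exact hpres g₂ hg₂ _ (hyF _) hi)
  refine ⟨g₂⁻¹ * f * g₁, K'.mul_mem (K'.mul_mem (K'.inv_mem hg₂) (hle hf)) hg₁, ?_⟩
  intro i
  rw [Equiv.Perm.mul_apply, Equiv.Perm.mul_apply, Equiv.Perm.inv_eq_iff_eq]
  induction i using Fin.lastCases with
  | last => rw [hg₁a, hg₂a, hKa f hf]
  | cast i => exact hfx i

theorem MT.isMultiplyPretransitive {α : Type*} {K : Subgroup (Equiv.Perm α)} {j : ℕ}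
    (h : MT K ∅ j) : MulAction.IsMultiplyPretransitive K α j := by
  refine ⟨fun x y => ?_⟩
  obtain ⟨g, hg, hgx⟩ := h x y x.injective y.injective (fun _ => Set.notMem_empty _)
    (fun _ => Set.notMem_empty _)
  exact ⟨⟨g, hg⟩, by ext i; exact hgx i⟩

end Cfsg.Agent.Lib.Helper12.Witt
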